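import Mathlib
import Cfsg.Agent.Lib.Asch.SUProper
import Cfsg.Agent.Lib.Asch.OrthField
import Cfsg.Agent.Lib.SLCases.Proper
import Cfsg.Agent.Lib.CasesSp.Basic

/-! Maximal subgroups of `SU₅(q)`: reduction by Aschbacher's theorem.  See `plans/SU5.md`. -/

set_option autoImplicit false

namespace CfsgLib.SU5

open Matrix Subgroup Cfsg Cfsg.Geo CfsgLib.Asch

variable {F : Type*} [Field F] [Fintype F] {q : ℕ}

/-- the image modulo scalars -/
abbrev Bar (P : Subgroup (GL (Fin 5) F)) : Type _ := P ⧸ (scalars (Fin 5) F).subgroupOf P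

/-- what is used of the classification of the residual class -/
def Res (F : Type*) [Field F] [Fintype F] (q : ℕ) : Prop :=
  ∀ H : Subgroup (GL (Fin 5) F), IsMaximalIn (SUG 5 F q) H → InUnitaryResidualClass H →
    ∃ P, IsResidualCore H P ∧ (Nat.card (Bar P) = 660 ∨ Nat.card (Bar P) = 25920) ∧ q.Prime

theorem exists_max {G : Type*} [Group G] [Finite G] {K N : Subgroup G} (h : N ≤ K) (h' : ¬ K ≤ N) :
    ∃ M, N ≤ M ∧ IsMaximalIn K M := by
  obtain ⟨M, h1, h2⟩ := (Set.toFinite {M : Subgroup G | M < K}).exists_le_maximal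
    (show N ∈ _ from lt_of_le_not_ge h h')
  exact ⟨M, h1, h2.1, fun L a b => b.eq_or_lt.symm.imp_left fun c => le_antisymm (h2.2 c a) a⟩

theorem red_stab {N : Subgroup (GL (Fin 5) F)} (h1 : ActsIrreducibly (matrixSet N))
    {W : Submodule F (Fin 5 → F)} (h0 : W ≠ ⊥) (h : N ≤ subspaceStabilizer W) : W = ⊤ :=
  (h1 W fun _ ⟨_, hg, e⟩ => e ▸ Submodule.map_le_iff_le_comap.2 fun v hv => (h hg v).1 hv).resolve_left h0

theorem red_five {r : ℕ} {R : Subgroup (GL (Fin 5) F)} (hR : IsSymplecticTypeGroup r R)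
    (habs : ActsAbsolutelyIrreducibly (matrixSet R)) (he : Monoid.exponent R ∣ Nat.card (center R)) :
    r = 5 := by
  obtain ⟨x, hx, y, hy, n⟩ : ∃ x ∈ R, ∃ g ∈ R, x * g ≠ g * x := by
    simpa using not_comm_of_env (by simp) (span_eq_top_of_absIrred habs)
  obtain ⟨ζ, e⟩ := mem_scalars_iff_sc.1 ((CasesSp.mem_center_iff_scalar habs _).1 (SLCases.comm_mem_center
    hR.prime hR.pGroup hR.cyclic_of_characteristic he ⟨x, hx⟩ ⟨y, hy⟩))
  have e' : x * y * x⁻¹ * y⁻¹ = sc (Fin 5) ζ := e.symm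
  have h5 : ζ ^ 5 = 1 := by
    have := congrArg Matrix.GeneralLinearGroup.det e'
    simp only [map_mul, map_inv, mul_inv_cancel_comm, mul_inv_cancel] at this
    refine Units.ext ?_
    simpa [coe_sc] using (congrArg Units.val this).symm
  have : Fact (Nat.Prime 5) := ⟨Nat.prime_five⟩
  have o : orderOf ζ = 5 := orderOf_eq_prime h5 fun e1 => n (by
    rw [e1, map_one, mul_inv_eq_one, mul_inv_eq_iff_eq_mul] at e'; exact e')
  obtain ⟨k, hk⟩ := hR.pGroup ⟨_, mul_mem (mul_mem (mul_mem hx hy) (inv_mem hx)) (inv_mem hy)⟩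
  have : ζ ^ r ^ k = 1 := sc_injective (ι := Fin 5) (by
    rw [map_pow, map_one, ← e']; exact congrArg Subtype.val hk)
  exact ((Nat.prime_dvd_prime_iff_eq Nat.prime_five hR.prime).1
    (Nat.prime_five.dvd_of_dvd_pow (o ▸ orderOf_dvd_of_pow_eq_one this))).symm

theorem max_of (hF : Fintype.card F = q ^ 2) (hres : Res F q) {N : Subgroup (GL (Fin 5) F)}
    (hN : N ≤ SUG 5 F q) (hne : ¬ SUG 5 F q ≤ N) (h1 : ActsIrreducibly (matrixSet N))
    (h2 : ∀ D : Fin 5 → Submodule F (Fin 5 → F), IsMDecomposition 1 D → ¬ N ≤ decompositionStabilizer D)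
    (h3 : ∀ K, IsFieldSubalgebra 5 K → N ≤ subalgebraNormalizer K →
      subalgebraNormalizer K ⊓ SUG 5 F q ≤ N)
    (h5 : ∀ (F₀ : Subfield F) (r : ℕ) (P : GL (Fin 5) F), r.Prime → Fintype.card F = Nat.card F₀ ^ r →
      ¬ N ≤ subfieldSubgroup F₀ P)
    (h6 : ∀ R : Subgroup (GL (Fin 5) F), IsSymplecticTypeGroup 5 R → ActsAbsolutelyIrreducibly (matrixSet R) →
      Nat.card (center R) = 5 → N ≤ subgroupNormalizer R → subgroupNormalizer R ⊓ SUG 5 F q ≤ N)
    (h9 : ∀ M P : Subgroup (GL (Fin 5) F), N ≤ M → M ≤ SUG 5 F q → IsResidualCore M P →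
      Nat.card (Bar P) = 660 ∨ Nat.card (Bar P) = 25920 → ¬ q.Prime) : IsMaximalIn (SUG 5 F q) N := by
  obtain ⟨M, hNM, hM⟩ := exists_max hN hne
  have fin : ∀ X : Subgroup (GL (Fin 5) F), M ≤ X ⊓ GU 5 F q → X ⊓ SUG 5 F q ≤ N → IsMaximalIn (SUG 5 F q) N :=
    fun X a b => (le_antisymm hNM ((le_inf (a.trans inf_le_left) hM.1.le).trans b)) ▸ hM
  have le : ∀ {X : Subgroup (GL (Fin 5) F)}, M ≤ X ⊓ GU 5 F q → N ≤ X := fun a => hNM.trans (a.trans inf_le_left)
  rcases unitary_aschbacher hF (by norm_num) (hM.1.le.trans inf_le_left) with ⟨X, hX, a⟩ | hr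
  swap
  · obtain ⟨P, a, b, c⟩ := hres M hM hr
    exact (h9 M P hNM hM.1.le a b c).elim
  rcases hX with (⟨W, h0, h, rfl⟩ | ⟨W, h0, -, h, rfl⟩ | ⟨t, k, D, hD, rfl⟩ | ⟨k, D, h, -⟩ |
    ⟨F₀, r, P, hr, -, h, -, rfl⟩ | ⟨F₀, P, -, h, -, rfl⟩ | ⟨F₀, P, ζ, h, -⟩ |
    ⟨r, R, p, e, k, hR, habs, -, -, -, h, rfl⟩) | ⟨r, K, hr, -, hK, -, rfl⟩ |
    ⟨m, n, e, P, -, -, hm, hn, -⟩ | ⟨k, t, e, P, -, hk, ht, -⟩
  · obtain rfl := red_stab h1 h0 (le a)
    have := h (Pi.single 0 1) trivial (Pi.single 0 1) trivial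
    have q0 : q ≠ 0 := by rintro rfl; exact Fintype.card_ne_zero hF
    simp [hermForm, Fin.sum_univ_five, q0] at this
  · obtain rfl := red_stab h1 h0 (le a)
    simp at h
  · have e := card_eq_of_decomp hD.decomp
    rw [Fintype.card_fin] at e
    obtain rfl : t = 5 := ((Nat.dvd_prime Nat.prime_five).1 ⟨k, e.symm⟩).resolve_left (by
      have := hD.decomp.two_le; omega)
    obtain rfl : k = 1 := by omega
    exact (h2 D hD.decomp (le a)).elim
  · omega
  · exact (h5 F₀ r P hr h (le a)).elim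
  · exact (h5 F₀ 2 P Nat.prime_two h (le a)).elim
  · exact absurd h (by decide)
  · obtain rfl := red_five hR habs (by
      rw [hR.exponent_eq]
      rcases h with ⟨h, e, -⟩ | ⟨rfl, -, e, -⟩ <;> rw [e]
      · rw [(Nat.coprime_two_left.2 h).gcd_eq_one, mul_one]
      · rfl)
    exact fin _ a (h6 R hR habs (h.elim (·.2.1) (by omega)) (le a))
  · obtain rfl : r = 5 := (Nat.prime_dvd_prime_iff_eq hr Nat.prime_five).1 (by simpa using field_dvd_card hK)
    exact fin _ a (h3 K hK (le a))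
  · have := Fintype.card_congr e
    simp only [Fintype.card_fin, Fintype.card_prod] at this
    nlinarith
  · have := Fintype.card_congr e
    simp only [Fintype.card_fin, Fintype.card_pi, Finset.prod_const, Finset.card_univ] at this
    have := (Nat.pow_le_pow_left hk t).trans' (Nat.pow_le_pow_right (by norm_num) ht)
    omega

end CfsgLib.SU5
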