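import Mathlib
import Cfsg.Agent.Lib.SU5.Defs
import Cfsg.Agent.Lib.Asch.SUNorm
import Cfsg.Agent.Lib.Wl5.Weil
import Cfsg.Agent.Lib.FPF.Aut

/-! The normaliser of `5^(1+2)` is maximal in `SU₅(q)`.  See `plans/SU5.md`. -/

set_option autoImplicit false
set_option linter.unusedSectionVars false

namespace CfsgLib.SU5

open Matrix Subgroup Cfsg Cfsg.Geo CfsgLib.Asch CfsgLib.Wl5

variable {F : Type*} [Field F] [Fintype F] {q : ℕ}

theorem ext_nf {R : Subgroup (GL (Fin 5) F)} (hR : IsSymplecticTypeGroup 5 R)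
    (habs : ActsAbsolutelyIrreducibly (matrixSet R)) (hZ : Nat.card (center R) = 5) :
    ∃ (ζ c : Fˣ) (x y u s : GL (Fin 5) F), HP ζ x y ∧ R = closure {x, y} ∧ x ∈ NS R ∧ y ∈ NS R ∧ u ∈ NS R ∧
      s ∈ NS R ∧ u * x * u⁻¹ = x ∧ u * y * u⁻¹ = sc _ c * (x * y) ∧ s * x * s⁻¹ = y⁻¹ := by
  obtain ⟨ζ, x, y, B, B', h1, h2, H, rfl, ex, ey⟩ := exists_nf hR habs hZ
  have pr := H.prim
  obtain ⟨z, hz⟩ : ∃ z : F, (ζ : F) = z := ⟨_, rfl⟩
  rw [hz] at pr ex
  have h5 : z ^ 5 = 1 := pr.pow_eq_one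
  have hs : 1 + z + z ^ 2 + z ^ 3 + z ^ 4 = 0 := by
    have := pr.geom_sum_eq_zero (by norm_num)
    simpa [Finset.sum_range_succ] using this
  have n5 : (5 : F) ≠ 0 := by exact_mod_cast (pr.neZero' (n := 5)).out
  obtain ⟨γ, g2⟩ : ∃ γ : F, γ * γ * 5 = 1 := ⟨(1 + 2 * z + 2 * z ^ 4) / 5, by field_simp; grind⟩
  have f2 : weilF z * weilF z = (5 : F) • weilZ F := by
    ext i j; fin_cases i <;> fin_cases j <;> simp [weilF, weilZ, mul_apply, Fin.sum_univ_succ] <;> grind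
  have z2 : weilZ F * weilZ F = 1 := by
    ext i j; fin_cases i <;> fin_cases j <;> simp [weilZ, mul_apply, Fin.sum_univ_succ]
  have p4 : (γ • weilF z) ^ 4 = 1 := by
    rw [show 4 = 2 * 2 from rfl, pow_mul, pow_two (γ • _), smul_mul_smul_comm, f2, smul_smul, g2, one_smul, pow_two, z2]
  have dU : (weilU z).det = 1 := by simp [weilU, Fin.prod_univ_five]; grind
  obtain ⟨S, vS⟩ := IsUnit.of_pow_eq_one p4 (by norm_num)
  obtain ⟨U, vU⟩ := (isUnit_iff_isUnit_det _).2 (dU ▸ isUnit_one)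
  have vX := weil_tr h1 h2 ex
  have vY := weil_tr h1 h2 ey
  obtain ⟨r1, r2, r3, r4, -⟩ := weil_rel h5
  obtain ⟨u, rfl⟩ := (trG h1 h2).surjective U
  obtain ⟨s, rfl⟩ := (trG h1 h2).surjective S
  have hX : x ∈ closure {x, y} := subset_closure (by simp)
  have hY : y ∈ closure {x, y} := subset_closure (by simp)
  have e1 : u * x * u⁻¹ = x := mul_inv_eq_iff_eq_mul.2 ((trG h1 h2).injective (Units.ext (by
    simpa [vU, vX] using r1)))
  have e2 : u * y * u⁻¹ = sc _ (ζ ^ 2) * (x * y) := mul_inv_eq_iff_eq_mul.2 ((trG h1 h2).injective (Units.ext (by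
    simpa [vU, vX, vY, weil_sc, ← map_pow, coe_sc, hz] using r2)))
  have e3 : s * x * s⁻¹ = y⁻¹ := by
    rw [eq_comm, inv_eq_iff_mul_eq_one, ← mul_assoc, ← mul_assoc, mul_inv_eq_one]
    exact (trG h1 h2).injective (Units.ext (by simp [vS, vX, vY, r3]))
  have e4 : s * y * s⁻¹ = x := mul_inv_eq_iff_eq_mul.2 ((trG h1 h2).injective (Units.ext (by simp [vS, vX, vY, r4])))
  have d4 : GeneralLinearGroup.det s ^ 4 = 1 := by
    rw [← map_pow, show s ^ 4 = 1 from (trG h1 h2).injective (Units.ext (by simpa [vS] using p4)), map_one]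
  have k : ∀ (c : Fˣ) (g : GL (Fin 5) F), sc _ c * s * g * (sc _ c * s)⁻¹ = s * g * s⁻¹ := fun c g => by
    rw [mul_assoc (sc _ c), _root_.mul_inv_rev, ← mul_assoc, mul_assoc (sc _ c), mul_comm_of_mem_scalars (sc_mem c),
      mul_inv_cancel_right]
  refine ⟨ζ, ζ ^ 2, x, y, u, sc _ (GeneralLinearGroup.det s ^ 3) * s, H, rfl,
    ⟨le_normalizer hX, weil_det (z := s * s) H.x5 (by
      rw [show s * s * x * (s * s)⁻¹ = s * (s * x * s⁻¹) * s⁻¹ by group, e3, ← e4]; group)⟩,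
    ⟨le_normalizer hY, weil_det (z := s * s) H.y5 (by rw [← e3, ← e4]; group)⟩,
    ⟨H.mem_normalizer (e1.symm ▸ hX) (e2.symm ▸ mul_mem (by rw [map_pow]; exact pow_mem H.sc_mem 2) (mul_mem hX hY)),
      (weil_sl h1 h2 u).1 (ClMax.mem_specialLinear.2 (vU ▸ dU))⟩,
    ⟨H.mem_normalizer (by rw [k, e3]; exact inv_mem hY) (by rw [k, e4]; exact hX), ClMax.mem_specialLinear.2 ?_⟩,
    e1, e2, by rw [k, e3]⟩
  have := congrArg Units.val d4
  simp only [Units.val_mul, coe_sc, det_mul, det_smul, det_one, Units.val_pow_eq_pow_val,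
    GeneralLinearGroup.val_det_apply, Fintype.card_fin, Units.val_one] at this ⊢
  grind

theorem ext_GU (hF : Fintype.card F = q ^ 2) (hq : q % 5 = 4) {g : GL (Fin 5) F}
    (hg : g ∈ specialLinear (Fin 5) F) {c : F} (h : g.1ᵀ * g.1.map (Unitary.conj hF) = c • 1) : g ∈ GU 5 F q := by
  have h5 := congrArg det h
  rw [det_mul, det_transpose, ← RingHom.mapMatrix_apply, ← RingHom.map_det, ClMax.mem_specialLinear.1 hg, det_smul] at h5
  have h0 : Unitary.conj hF c = c := by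
    have := congrFun (congrFun h 0) 0
    simp only [mul_apply, transpose_apply, map_apply, Matrix.smul_apply, one_apply_eq, smul_eq_mul, mul_one] at this
    rw [← this]
    simp [Unitary.conj_conj, mul_comm]
  rw [Unitary.conj_apply, ← Nat.div_add_mod q 5, hq, pow_add, pow_mul] at h0
  simp only [map_one, mul_one, Fintype.card_fin, det_one] at h5
  rw [← h5, one_pow] at h0
  rw [Unitary.mem_GU_iff hF, h, show c = 1 by grind, one_smul]

theorem ext_NS (hF : Fintype.card F = q ^ 2) (hq : q % 5 = 4) {R : Subgroup (GL (Fin 5) F)} (he : env R = ⊤)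
    (h1 : R ≤ specialLinear (Fin 5) F) (hs : R ≤ similarityGroup (hermForm 5 F q)) : NS R ≤ GU 5 F q := by
  have hU : R ≤ GU 5 F q := fun r hr => by
    obtain ⟨c, hc⟩ := hs hr
    refine ext_GU hF hq (h1 hr) (c := c) ?_
    ext i j
    have := hc (Pi.single i 1) (Pi.single j 1)
    simpa [hermForm, mul_apply, Unitary.conj_apply, one_apply, Pi.single_apply, Unitary.q_ne_zero hF, eq_comm]
      using this
  intro g hg
  obtain ⟨c, hc⟩ := scalar_of_comm_env he (x := (g.1ᵀ * g.1.map (Unitary.conj hF)).map (Unitary.conj hF))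
    fun r hr => by
      have a := (Unitary.mem_GU_iff hF _).1 (hU hr)
      have b := (Unitary.mem_GU_iff hF _).1 (hU (Tech.conj_mem_of_mem_normalizer hg.1 hr))
      have e : g.1 * r.1 = (g * r * g⁻¹).1 * g.1 := by simp
      have k : r.1ᵀ * (g.1ᵀ * g.1.map (Unitary.conj hF)) * r.1.map (Unitary.conj hF) =
          g.1ᵀ * g.1.map (Unitary.conj hF) := by
        rw [← Matrix.mul_assoc, ← transpose_mul, Matrix.mul_assoc, ← Matrix.map_mul, e, transpose_mul,
          Matrix.map_mul, Matrix.mul_assoc, ← Matrix.mul_assoc (g * r * g⁻¹).1ᵀ, b, Matrix.one_mul]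
      have k' := congrArg (fun m => (r.1.map (Unitary.conj hF) * m).map (Unitary.conj hF)) k
      simp only [← Matrix.mul_assoc, mul_eq_one_comm.1 a, Matrix.one_mul] at k'
      rw [Matrix.mul_assoc (r.1.map _), Matrix.map_mul, Matrix.map_mul (L := r.1.map _), Matrix.map_map] at k'
      simpa [Function.comp_def, Unitary.conj_conj] using k'
  refine ext_GU hF hq hg.2 (c := Unitary.conj hF c) ?_
  ext i j
  have := congrArg (Unitary.conj hF) (congrFun (congrFun hc i) j)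
  rw [map_apply, Unitary.conj_conj] at this
  rw [this]
  by_cases e : i = j <;> simp [e]

theorem ext_prim {N : Subgroup (GL (Fin 5) F)} (h : ∀ A : Subalgebra F (Matrix (Fin 5) (Fin 5) F), Stab N A → A = ⊥ ∨ A = ⊤)
    {D : Fin 5 → Submodule F (Fin 5 → F)} (hD : IsMDecomposition 1 D) : ¬ N ≤ decompositionStabilizer D := by
  intro hN
  let A : Subalgebra F (Matrix (Fin 5) (Fin 5) F) :=
    { carrier := {m | ∀ i, ∀ v ∈ D i, m *ᵥ v ∈ D i}
      mul_mem' := fun ha hb i v hv => by rw [← mulVec_mulVec]; exact ha i _ (hb i v hv)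
      add_mem' := fun ha hb i v hv => by rw [add_mulVec]; exact add_mem (ha i v hv) (hb i v hv)
      algebraMap_mem' := fun c i v hv => by
        rw [Algebra.algebraMap_eq_smul_one, smul_mulVec, one_mulVec]; exact (D i).smul_mem c hv }
  have c : IsCompl (D 0) (⨆ j, ⨆ _ : j ≠ 0, D j) :=
    ⟨hD.indep 0, codisjoint_iff.2 (by rw [← iSup_split_single, hD.iSup_eq_top])⟩
  obtain ⟨v, hv, v0⟩ := (Submodule.ne_bot_iff _).1 (IsMDecomposition.ne_bot hD 0)
  obtain ⟨w, hw, w0⟩ := (Submodule.ne_bot_iff _).1 (IsMDecomposition.ne_bot hD 1)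
  have m : ∀ j ≠ 0, ∀ w ∈ D j, w ∈ ⨆ j, ⨆ _ : j ≠ 0, D j := fun j n => le_iSup₂_of_le (f := fun j (_ : j ≠ 0) => D j) j n le_rfl
  rcases h A fun g hg a ha i v hv => by
    obtain ⟨σ, h1⟩ := hN hg
    rw [← σ.apply_symm_apply i, ← h1] at hv ⊢
    obtain ⟨w, hw, rfl⟩ := hv
    exact ⟨_, ha _ w hw, (cj_mulVec g a w).symm⟩ with e | e
  · obtain ⟨d, hd⟩ := mem_bot_iff.1 (e ▸ show LinearMap.toMatrix' ((D 0).projection _ c) ∈ A from fun i v hv => by
      rw [← toLin'_apply, toLin'_toMatrix']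
      by_cases n : i = 0
      · subst n; exact Submodule.projection_apply_mem c v
      · rw [Submodule.projection_apply_eq_zero_iff c |>.2 (m i n v hv)]; exact zero_mem _)
    have k : ∀ a, (D 0).projection _ c a = d • a := fun a => by
      rw [← toLin'_toMatrix' ((D 0).projection _ c), toLin'_apply, hd, smul_mulVec, one_mulVec]
    have a := k w
    rw [Submodule.projection_apply_eq_zero_iff c |>.2 (m 1 (by decide) w hw), eq_comm, smul_eq_zero_iff_left w0] at a
    have b := k v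
    rw [a, zero_smul, Submodule.projection_apply_eq_zero_iff] at b
    exact v0 (Submodule.disjoint_def.1 c.1 v hv b)
  · obtain ⟨a, ha⟩ := exists_mulVec_eq v0 w
    exact w0 (Submodule.disjoint_def.1 c.1 w (ha ▸ (e ▸ Algebra.mem_top : a ∈ A) 0 v hv) (m 1 (by decide) w hw))

theorem ext_sub {ζ : Fˣ} {x y P : GL (Fin 5) F} (H : HP ζ x y) {F₀ : Subfield F} (hx : x ∈ subfieldSubgroup F₀ P)
    (hy : y ∈ subfieldSubgroup F₀ P) : Nat.card F₀ % 5 = 1 := by
  obtain ⟨a, ha⟩ := mem_subfieldSubgroup.1 hx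
  obtain ⟨b, hb⟩ := mem_subfieldSubgroup.1 hy
  have e : (a : F) • cj P⁻¹ x.1 * (b : F) • cj P⁻¹ y.1 = (ζ : F) • ((b : F) • cj P⁻¹ y.1 * (a : F) • cj P⁻¹ x.1) := by
    simp only [smul_mul_smul_comm, ← map_mul, ← Units.val_mul]
    rw [H.comm, Units.val_mul (sc _ ζ), coe_sc, smul_one_mul, map_smul, smul_comm, mul_comm a]
  obtain ⟨i, j, n⟩ : ∃ i j, ((b : F) • cj P⁻¹ y.1 * (a : F) • cj P⁻¹ x.1) i j ≠ 0 := by
    by_contra! n
    have : (b : F) • cj P⁻¹ y.1 * (a : F) • cj P⁻¹ x.1 = 0 := ext n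
    rw [smul_mul_smul_comm, ← map_mul, ← Units.val_mul, ← Units.val_mul, smul_eq_zero_iff_right (Units.ne_zero _),
      map_eq_zero_iff _ (cj _).injective] at this
    exact Units.ne_zero _ this
  have hz : (ζ : F) ∈ F₀ := by
    have := F₀.div_mem (ha.mul hb i j) (hb.mul ha i j)
    rwa [e, Matrix.smul_apply, smul_eq_mul, mul_div_cancel_right₀ _ n] at this
  have : Fintype F₀ := Fintype.ofFinite _
  have k := H.prim.dvd_of_pow_eq_one _ (congrArg Subtype.val (FiniteField.pow_card_sub_one_eq_one (⟨ζ, hz⟩ : F₀)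
    fun e => ζ.ne_zero (congrArg Subtype.val e)))
  have := Fintype.card_pos (α := F₀)
  rw [Nat.card_eq_fintype_card]
  omega

theorem su5_ext (hF : Fintype.card F = q ^ 2) (hres : Res F q) {p : ℕ} (hp : p.Prime)
    (hq : (q = p ∧ p % 5 = 4) ∨ (q = p ^ 2 ∧ (p % 5 = 2 ∨ p % 5 = 3))) {R : Subgroup (GL (Fin 5) F)}
    (hR : IsSymplecticTypeGroup 5 R) (habs : ActsAbsolutelyIrreducibly (matrixSet R))
    (hs : R ≤ similarityGroup (hermForm 5 F q)) (hZ : Nat.card (center R) = 5) :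
    IsMaximalIn (SUG 5 F q) (subgroupNormalizer R ⊓ SUG 5 F q) := by
  obtain ⟨ζ, c, x, y, u, s, H, rfl, hx, hy, hu, hs', e1, e2, e3⟩ := ext_nf hR habs hZ
  have hX : x ∈ closure {x, y} := subset_closure (by simp)
  have hY : y ∈ closure {x, y} := subset_closure (by simp)
  have q4 : q % 5 = 4 := by
    rcases hq with ⟨rfl, h⟩ | ⟨rfl, h | h⟩
    exacts [h, by rw [Nat.pow_mod, h], by rw [Nat.pow_mod, h]]
  have sl : closure {x, y} ≤ specialLinear (Fin 5) F := (closure_le _).2 (by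
    rintro _ (rfl | rfl); exacts [hx.2, hy.2])
  have e : subgroupNormalizer (closure {x, y}) ⊓ SUG 5 F q = NS (closure {x, y}) :=
    le_antisymm (inf_le_inf_left _ inf_le_right) fun g hg => ⟨hg.1, ext_NS hF q4 H.env_top sl hs hg, hg.2⟩
  have st : ∀ A : Subalgebra F (Matrix (Fin 5) (Fin 5) F), Stab (NS (closure {x, y})) A → A = ⊥ ∨ A = ⊤ :=
    fun A => H.stab hx hy hu hs' e1 e2 e3
  have nc : x * y ≠ y * x := fun n => H.prim.ne_one (by norm_num) (by
    have := H.comm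
    rw [n, eq_comm, mul_eq_right, ← map_one (sc (Fin 5)), sc_injective.eq_iff] at this
    rw [this, Units.val_one])
  refine max_of hF hres inf_le_right (fun h => not_le_subgroupNormalizer hF (by omega) (by omega) hs
      (not_le_scalars_of_irred (by simp) habs.1) (fun h8 => SUG_not_le_scalars hF (n := 5) (by omega) ?_)
      (h.trans inf_le_left)) (e ▸ irred_mono habs.1 (matrixSet_mono (le_inf le_normalizer sl)))
    (fun D hD => e ▸ ext_prim st hD) (fun K hK h => ?_) (fun F₀ r P hr hc h => ?_) (fun R hR ha hZ h => ?_)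
    fun M P h1 h2 hP hc _ => ?_
  · rw [← SUG_perfect hF (by omega) (by omega), Subgroup.commutator_le]
    exact fun a ha b hb => H.comm_mem (h8 ha) (h8 hb)
  · rcases st K (stab_of_le_normalizer (e ▸ h)) with rfl | rfl
    · exact absurd hK.finrank_eq (by simp)
    · exact (not_comm_of_two_le (by simp) fun a b => hK.comm a trivial b trivial).elim
  · have k := ext_sub H (h (e ▸ hx)) (h (e ▸ hy))
    obtain ⟨m, hm, e⟩ : ∃ m, m ∣ 2 ^ 2 ∧ Nat.card F₀ ^ r = p ^ m := by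
      rw [← hc, hF]
      rcases hq with ⟨rfl, -⟩ | ⟨rfl, -⟩
      exacts [⟨2, by norm_num, rfl⟩, ⟨4, by norm_num, by ring⟩]
    obtain ⟨j, -, e'⟩ := (Nat.dvd_prime_pow hp).1 (e ▸ dvd_pow_self (Nat.card F₀) hr.ne_zero)
    rw [e', ← pow_mul, Nat.pow_right_inj hp.one_lt] at e
    obtain rfl := (Nat.prime_dvd_prime_iff_eq hr Nat.prime_two).1 (hr.dvd_of_dvd_pow ((Dvd.intro_left _ e).trans hm))
    rw [hF, Nat.pow_left_inj (by norm_num)] at hc
    omega
  · obtain ⟨ζ', x', y', -, -, -, -, H', rfl, -⟩ := exists_nf hR ha hZ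
    have n : ∀ {T : Subgroup (GL (Fin 5) F)}, T ≤ subgroupNormalizer (closure {x', y'}) →
        Nrm T (((closure {x', y'}).map (heisPi _ F)).comap (heisPi _ F)) := fun hT g hg a ⟨b, hb, k⟩ =>
      ⟨_, Tech.conj_mem_of_mem_normalizer (hT hg) hb, by simp only [map_mul, k]⟩
    refine inf_le_inf_right _ ((nrm_iff_le_normalizer.1 (n le_rfl)).trans (H.fin (by simp) hx hy hu hs' e1 e2 e3
      (fun a ha => by rw [mem_comap, heis_pi_eq_one.2 ha]; exact one_mem _) (n (e ▸ h))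
      (fun k => not_le_scalars_of_irred (by simp) ha.1 ((le_comap_map _ _).trans k)) ?_))
    rintro a ⟨a', ha, k⟩ b ⟨b', hb, l⟩
    rw [heis_comm_iff, ← k, ← l, ← heis_comm_iff]
    exact H'.comm_mem ha hb
  · rw [e] at h1
    have : Fact (Nat.Prime 5) := ⟨Nat.prime_five⟩
    have cd : Nat.card (Bar P) = Nat.card (P.map (heisPi _ F)) := by
      rw [← relIndex_ker, QuotientGroup.ker_mk']; rfl
    have n : Nrm (NS (closure {x, y})) ((P.map (heisPi _ F)).comap (heisPi _ F)) := fun g hg a ⟨b, hb, k⟩ =>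
      ⟨_, hP.normal g (h1 hg) b hb, by simp only [map_mul, k]⟩
    have pg : IsPGroup 5 ((closure {x, y}).map (heisPi _ F)) :=
      IsPGroup.map (fun g => ⟨1, Subtype.ext (by simpa using H.pow5 g.2)⟩) _
    obtain ⟨⟨_, ⟨l, hl, rfl⟩, hl'⟩, l1⟩ := ne_bot_iff_exists_ne_one.1 (fun h => FPF.not_dvd_card_of_fpf Nat.prime_five pg
      (S := P.map (heisPi _ F)) ((map_mono ((le_inf le_normalizer sl).trans (h1.trans (nrm_iff_le_normalizer.1 hP.normal)))).trans
        (le_normalizer_map _)) h (by omega))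
    obtain ⟨d, i, j, rfl⟩ := H.mem_of_comm (g := l) (heis_comm_iff.2 (hl' _ ⟨x, hX, rfl⟩).symm)
      (heis_comm_iff.2 (hl' _ ⟨y, hY, rfl⟩).symm)
    have k : heisPi _ F (sc (Fin 5) d * (x ^ i * y ^ j)) = heisPi _ F (x ^ i * y ^ j) := by
      rw [map_mul, heis_pi_sc, one_mul]
    obtain ⟨mx, my⟩ := H.mem_of_nrm hu hs' e1 e2 e3 (fun a ha => by
      rw [mem_comap, heis_pi_eq_one.2 ha]; exact one_mem _) n ⟨_, hl, k⟩ fun h => l1 (Subtype.ext (k.trans (heis_pi_eq_one.2 h)))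
    have dv := card_dvd_of_le (map_le_iff_le_comap.2 ((closure_le _).2 (by rintro _ (rfl | rfl); exacts [mx, my])) :
      (closure {x, y}).map (heisPi _ F) ≤ P.map (heisPi _ F))
    obtain ⟨m, hm⟩ := IsPGroup.iff_card.1 pg
    have o : orderOf (heisPi _ F x) = 5 := orderOf_eq_prime (by rw [← map_pow, H.x5, map_one]) fun h =>
      nc (mul_comm_of_mem_scalars (heis_pi_eq_one.1 h) y)
    have : m ≤ 1 := by
      by_contra! h
      have : 25 ∣ Nat.card (P.map (heisPi _ F)) := (pow_dvd_pow 5 (show 2 ≤ m from h)).trans (hm ▸ dv)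
      omega
    obtain ⟨t, ht⟩ : heisPi _ F y ∈ zpowers (heisPi _ F x) := by
      rw [eq_of_le_of_card_ge (zpowers_le.2 (mem_map_of_mem _ hX)) (by
        rw [Nat.card_zpowers, o, hm]; exact (Nat.pow_le_pow_right (by norm_num) this))]
      exact mem_map_of_mem _ hY
    have : y * (x ^ t)⁻¹ ∈ scalars (Fin 5) F := heis_pi_eq_one.1 (by rw [map_mul, map_inv, map_zpow, ← ht]; simp)
    apply nc
    rw [← inv_mul_cancel_right y (x ^ t), ← mul_assoc, ← mul_comm_of_mem_scalars this x]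
    group

end CfsgLib.SU5
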