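import Mathlib
import Cfsg.Agent.Lib.SUMax.Low2

/-! The stabiliser of an orthonormal frame is maximal in `SU₅(q)`.  See `plans/SU5.md`. -/

set_option autoImplicit false

namespace CfsgLib.SU5

open CfsgLib.Forms CfsgLib.Unitary CfsgLib.ClMax CfsgLib.RootMax CfsgLib.SUMax Module

section fr5

variable {F : Type*} [Field F] {σ : F →+* F} {V : Type*} [AddCommGroup V] [Module F V]
  {P : PQ σ V} {X : Subgroup (V ≃ₗ[F] V)} {ι : Type*} {e : ι → V}

/-- `k` is the negative of the reflection in the unit vector `y`. -/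
def fr5_NR (P : PQ σ V) (y : V) (k : V ≃ₗ[F] V) : Prop := ∀ v, k v = -v + (2 * P.B y v) • y

theorem fr5_conj {y : V} {k g : V ≃ₗ[F] V} (h : fr5_NR P y k) (hg : P.IsIso g) :
    fr5_NR P (g y) (g * k * g⁻¹) := fun v => by
  rw [LinearEquiv.mul_apply, LinearEquiv.mul_apply, h, map_add, map_neg, map_smul, apply_inv_apply,
    ← hg.B_eq y, apply_inv_apply]

theorem fr5_self {y : V} {k : V ≃ₗ[F] V} (h : fr5_NR P y k) (hy : P.B y y = 1) : k y = y := by
  rw [h, hy]; module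

theorem fr5_sq {y : V} {k : V ≃ₗ[F] V} (h : fr5_NR P y k) (hy : P.B y y = 1) : k * k = 1 :=
  LinearEquiv.ext fun v => by
    rw [LinearEquiv.mul_apply, h v, map_add, map_neg, map_smul, fr5_self h hy, h v]
    simp

theorem fr5_fix (h2 : (2 : F) ≠ 0) {y : V} {k : V ≃ₗ[F] V} (h : fr5_NR P y k) {v : V}
    (hv : k v = v) : v = P.B y v • y := by
  rw [h] at hv
  refine smul_right_injective V h2 ?_
  simp only
  linear_combination (norm := module) -hv

theorem fr5_unique {y z : V} {k k' : V ≃ₗ[F] V} (h : fr5_NR P y k) (h' : fr5_NR P z k')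
    (hy : P.B y y = 1) (hz : P.B z z = 1) {c : F} (hc : y = c • z) : k = k' := by
  have h1 : σ c * c = 1 := by
    rw [hc, P.B_smul_left, P.B_smul_right, hz] at hy
    linear_combination hy
  refine LinearEquiv.ext fun v => ?_
  rw [h, h', hc, P.B_smul_left]
  linear_combination (norm := module) (2 * P.B z v * h1) • z

variable [Fintype ι] [FiniteDimensional F V] (h : Frame P e) (hH : P.IsHerm) (hP : P.Nondeg)
  (hD : ∀ g ∈ SUV P, Mon e g → g ∈ X) (hι : Fintype.card ι = 5)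
include h hH hP hD hι

theorem fr5_exists (a : ι) : ∃ k ∈ X, Mon e k ∧ fr5_NR P (e a) k := by
  classical
  obtain ⟨k, k1, k2, k3⟩ := h.exists_dg hH hP (fun _ => -1) (fun _ => by simp) (Finset.univ.erase a)
  refine ⟨k, hD k ⟨k1, mem_SLV.2 ?_⟩ (h.mon_of_dg k3), h.mon_of_dg k3, fun v => h.ext fun l => ?_⟩
  · rw [k2, Finset.prod_const, Finset.card_erase_of_mem (Finset.mem_univ _), Finset.card_univ, hι]
    norm_num
  · rw [k3]
    by_cases hl : l = a
    · subst hl; simp [h.unit]; ring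
    · simp [hl, h.orth hl]

variable (h2 : (2 : F) ≠ 0) (hμ : MuData σ) (hX : X ≤ P.isom)
  (hst : ∀ g ∈ X, ∀ i, IsPt e (g (e i)) F → Mon e g)
include h2 hμ hX hst

theorem fr5_zero {g : V ≃ₗ[F] V} (hg : g ∈ X) {a j : ι} (hj : P.B (e j) (g (e a)) = 0) :
    Mon e g := by
  classical
  obtain ⟨s, hs, -, hs'⟩ := fr5_exists h hH hP hD hι a
  have ht := fr5_conj hs' (hX hg)
  have htX := X.mul_mem (X.mul_mem hg hs) (X.inv_mem hg)
  have h1 := hst _ htX j ⟨j, -1, by rw [ht, P.B_eq_zero_comm.1 hj]; simp⟩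
  by_cases h3 : ∃ j', j' ≠ j ∧ P.B (e j') (g (e a)) = 0
  · obtain ⟨j', h3, h4⟩ := h3
    refine h.wb2 hH hP hD h2 hμ hX hst (by omega) hg (a := a) {j', j}ᶜ (by
      rw [Finset.card_compl, Finset.card_pair h3]; omega) fun l hl => ?_
    simp only [Finset.mem_compl, not_not, Finset.mem_insert, Finset.mem_singleton] at hl
    rcases hl with rfl | rfl <;> assumption
  push Not at h3
  exfalso
  obtain ⟨k, hk⟩ := exists_notMem {j} (by rw [Finset.card_singleton]; omega)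
  obtain ⟨l, hl⟩ := exists_notMem {j, k} (lt_of_le_of_lt Finset.card_le_two (by omega))
  obtain ⟨m, hm⟩ := exists_notMem {j, k, l} (lt_of_le_of_lt Finset.card_le_three (by omega))
  simp only [Finset.mem_insert, Finset.mem_singleton, not_or] at hk hl hm
  have h4 : P.B (g (e a)) (e k) ≠ 0 := fun h0 => h3 k hk (P.B_eq_zero_comm.1 h0)
  have h5 := h.pt_two (h1 k) (Ne.symm hm.2.2)
  rw [ht] at h5
  simpa [h.orth hl.2, h.orth hm.2.1, h2, h4, h3 l hl.1, h3 m hm.1] using h5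

theorem fr5_odd [Finite F] {g : V ≃ₗ[F] V} (hg : g ∈ X) {a : ι}
    (hf : ∀ l, P.B (e l) (g (e a)) ≠ 0) {i : ι} {s t : V ≃ₗ[F] V} (hsX : s ∈ X) (htX : t ∈ X)
    (hs : fr5_NR P (e i) s) (ht : fr5_NR P (g (e a)) t) : Odd (orderOf (s * t)) := by
  classical
  have : Finite V := Module.finite_of_finite F
  have : Finite (V ≃ₗ[F] V) := Finite.of_injective (fun g : V ≃ₗ[F] V => (g : V → V))
    DFunLike.coe_injective
  have hy : P.B (g (e a)) (g (e a)) = 1 := by rw [(hX hg).B_eq, h.unit]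
  have hss := fr5_sq hs (h.unit i)
  refine (dihedral_odd_or hss (fr5_sq ht hy) X hsX htX).resolve_right ?_
  rintro ⟨w, hw, hw1, e1, e2, ⟨u, hu, e3⟩, -⟩
  obtain ⟨g', hg', a', hk⟩ : ∃ g' ∈ X, ∃ a', fr5_NR P (g' (e a')) (w * s) := by
    rcases e3 with e3 | e3 <;> rw [e3]
    · exact ⟨u, hu, i, fr5_conj hs (hX hu)⟩
    · exact ⟨u * g, X.mul_mem hu hg, a, fr5_conj ht (hX hu)⟩
  have hy' : P.B (g' (e a')) (g' (e a')) = 1 := by rw [(hX hg').B_eq, h.unit]
  have h0 : ∀ c : F, g' (e a') ≠ c • e i := fun c hc =>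
    hw1 (by simpa using fr5_unique hk hs hy' (h.unit i) hc)
  have h1 : (w * s) (e i) = P.B (e i) ((w * s) (e i)) • e i := fr5_fix h2 hs (by
    rw [← LinearEquiv.mul_apply, ← mul_assoc, ← e1, LinearEquiv.mul_apply, fr5_self hs (h.unit i)])
  have h3 : P.B (e i) (g' (e a')) = 0 := by
    by_contra h3
    have h4 : 2 * P.B (g' (e a')) (e i) ≠ 0 :=
      mul_ne_zero h2 fun h0 => h3 (P.B_eq_zero_comm.1 h0)
    refine h0 ((2 * P.B (g' (e a')) (e i))⁻¹ * (P.B (e i) ((w * s) (e i)) + 1)) ?_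
    rw [mul_smul, eq_inv_smul_iff₀ h4, add_smul, ← h1, hk]
    module
  obtain ⟨m, c, hc⟩ := fr5_zero h hH hP hD hι h2 hμ hX hst hg' h3 a'
  have hm : m ≠ i := by rintro rfl; exact h0 c hc
  obtain ⟨r, -, -, hr⟩ := fr5_exists h hH hP hD hι m
  have h4 := fr5_unique hk hr hy' (h.unit m) hc
  have h5 : w = r * s := by rw [← h4, mul_assoc, hss, mul_one]
  have h6 := fr5_fix h2 ht (v := w (g (e a))) (by
    rw [← LinearEquiv.mul_apply, ← e2, LinearEquiv.mul_apply, fr5_self ht hy])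
  obtain ⟨l, hl⟩ := exists_notMem {i, m} (lt_of_le_of_lt Finset.card_le_two (by omega))
  simp only [Finset.mem_insert, Finset.mem_singleton, not_or] at hl
  generalize P.B (g (e a)) (w (g (e a))) = μ at h6
  have h7 := congrArg (P.B (e i)) h6
  have h8 := congrArg (P.B (e l)) h6
  rw [h5, LinearEquiv.mul_apply, hr, hs] at h7 h8
  simp only [map_add, map_neg, map_smul, smul_eq_mul, h.unit, h.orth hm, h.orth hm.symm,
    h.orth hl.1, h.orth hl.2] at h7 h8
  have h9 : μ = -1 := mul_right_cancel₀ (hf i) (by linear_combination -h7)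
  have h10 : μ = 1 := mul_right_cancel₀ (hf l) (by linear_combination -h8)
  exact h2 (by linear_combination h9 - h10)

theorem fr5_mon [Finite F] {g : V ≃ₗ[F] V} (hg : g ∈ X) : Mon e g := by
  classical
  obtain ⟨a, -⟩ := exists_notMem (∅ : Finset ι) (by simp; omega)
  by_contra hg'
  have hf : ∀ l, P.B (e l) (g (e a)) ≠ 0 := fun l hl =>
    hg' (fr5_zero h hH hP hD hι h2 hμ hX hst hg hl)
  obtain ⟨s₀, hs₀, -, hs₀'⟩ := fr5_exists h hH hP hD hι a
  have ht := fr5_conj hs₀' (hX hg)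
  have htX := X.mul_mem (X.mul_mem hg hs₀) (X.inv_mem hg)
  have hy : P.B (g (e a)) (g (e a)) = 1 := by rw [(hX hg).B_eq, h.unit]
  generalize g * s₀ * g⁻¹ = t at ht htX
  have ex : ∀ i, ∃ s ∈ X, ∃ z, P.B z z = 1 ∧ fr5_NR P z s ∧ (∀ l, P.B z (e l) ≠ 0) ∧
      ∃ c : F, c ≠ 0 ∧ s (e i) = c • g (e a) := fun i => by
    obtain ⟨s, hs, hsm, hs'⟩ := fr5_exists h hH hP hD hι i
    obtain ⟨u, hu, e1⟩ := dihedral_of_odd (fr5_sq hs' (h.unit i)) (fr5_sq ht hy) X hs htX
      (fr5_odd h hH hP hD hι h2 hμ hX hst hg hf hs htX hs' ht)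
    have hk := X.mul_mem (X.mul_mem hu hs) (X.inv_mem hu)
    have hk' := fr5_conj hs' (hX hu)
    have h1 := fr5_conj hs' (hX hk)
    rw [e1] at h1
    have h3 := fr5_fix h2 ht (fr5_self h1 (by rw [(hX hk).B_eq, h.unit]))
    have h4 : P.B (g (e a)) ((u * s * u⁻¹) (e i)) ≠ 0 := fun h0 => by
      rw [h0, zero_smul] at h3
      exact h.ne_zero i ((u * s * u⁻¹).injective (h3.trans (map_zero _).symm))
    refine ⟨_, hk, _, by rw [(hX hu).B_eq, h.unit], hk', fun l hl => ?_, _, h4, h3⟩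
    have h5 := fr5_zero h hH hP hD hι h2 hμ hX hst hu (P.B_eq_zero_comm.1 hl)
    obtain ⟨j, hj⟩ := exists_notMem {a} (by rw [Finset.card_singleton]; omega)
    have h6 := h.pt_two ((h5.mul hsm).mul (h.mon_inv h5) i) (Finset.notMem_singleton.1 hj)
    rw [h3, P.B_smul_right, P.B_smul_right] at h6
    exact h6.elim (mul_ne_zero h4 (hf _)) (mul_ne_zero h4 (hf _))
  obtain ⟨j, hj⟩ := exists_notMem {a} (by rw [Finset.card_singleton]; omega)
  rw [Finset.notMem_singleton] at hj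
  obtain ⟨s, hs, z, hz, hs', hz', c, hc, e1⟩ := ex a
  obtain ⟨r, hr, x, hx, hr', hx', d, hd, e2⟩ := ex j
  have hrr := fr5_sq hr' hx
  have h1 : (r * s) (e a) = (c * d⁻¹) • e j := by
    have : r (g (e a)) = d⁻¹ • e j := by
      rw [eq_inv_smul_iff₀ hd, ← map_smul, ← e2, ← LinearEquiv.mul_apply, hrr]; rfl
    rw [LinearEquiv.mul_apply, e1, map_smul, this, smul_smul]
  have h3 := hst _ (X.mul_mem hr hs) a ⟨j, _, h1⟩
  obtain ⟨S, h4, hS⟩ := h.exists_moved h3 (Y := Submodule.span F {z, x}) fun v =>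
    Submodule.mem_span_pair.2 ⟨-(2 * P.B z v), 2 * P.B x (s v), by
      rw [LinearEquiv.mul_apply, hr' (s v), hs' v]; module⟩
  have h5 := SUMax.finrank_span_pair_le (F := F) z x
  obtain ⟨m, hm⟩ := exists_notMem S (by omega)
  have h6 : s (e m) = r (e m) := by
    have := congrArg r (hS m hm)
    rwa [← LinearEquiv.mul_apply, ← mul_assoc, hrr, one_mul] at this
  rw [hs', hr', add_right_inj] at h6
  have h7 : s = r := fr5_unique hs' hr' hz hx (c := (2 * P.B z (e m))⁻¹ * (2 * P.B x (e m))) (by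
    rw [mul_smul, eq_inv_smul_iff₀ (mul_ne_zero h2 (hz' m)), h6])
  rw [h7, hrr] at h1
  have h8 := congrArg (P.B (e a)) h1
  simp [h.unit, h.orth (Ne.symm hj)] at h8

omit h2 hX hst in
theorem fr5_top [Finite F] (hX : X ≤ SUV P) {g : V ≃ₗ[F] V} (hg : g ∈ X) (hg' : ¬ Mon e g) :
    TFOn P X ⊤ := by
  classical
  have fin : ∀ Y : Subgroup (V ≃ₗ[F] V), (∀ g ∈ Y, g ∈ SLV F V → g ∈ X) → TFOn P Y ⊤ →
      TFOn P X ⊤ := fun Y h6 h7 x _ hx d hd => by
    obtain ⟨t, ht, e1⟩ := h7 x trivial hx d hd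
    obtain ⟨t', ht', e2⟩ := exists_tv_SUV hH hx hd
    obtain rfl : t = t' := LinearEquiv.ext fun v => by rw [e1, e2]
    exact ⟨t, h6 t ht ht'.2, e1⟩
  by_cases hq : ∀ c, σ c = c → c = 0 ∨ c = 1
  · have h5 : finrank F V = 5 := by
      have h1 := h.finrank_span Finset.univ
      rwa [Finset.card_univ, hι, Finset.coe_univ, show Submodule.span F (e '' Set.univ) = ⊤ from
        eq_top_iff.2 fun v _ => h.mem_span.2 (by simp), finrank_top] at h1
    have h2 := two_eq_zero_of hq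
    have c3 : ∀ c : F, σ c * c = 1 → c ^ 3 = 1 := fun c hc => by
      rcases hq (c + σ c) (by rw [map_add, P.σσ, add_comm]) with h0 | h0
      · have : (c - 1) ^ 2 = 0 := by linear_combination c * h0 - hc - c * h2
        rw [sub_eq_zero.1 (pow_eq_zero_iff two_ne_zero |>.1 this), one_pow]
      · linear_combination (c ^ 2 + c) * h0 - (c + 1) * hc + (-1 : F) * h2
    have hdet : ∀ {y x : V ≃ₗ[F] V} {c : F}, (∀ v, y v = c • x v) →
        LinearMap.det (y : V →ₗ[F] V) = c ^ 5 * LinearMap.det (x : V →ₗ[F] V) := fun {y x c} e => by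
      rw [show (y : V →ₗ[F] V) = c • (x : V →ₗ[F] V) from LinearMap.ext e, LinearMap.det_smul, h5]
    let Y : Subgroup (V ≃ₗ[F] V) :=
      { carrier := {y | ∃ c : F, σ c * c = 1 ∧ ∃ x ∈ X, ∀ v, y v = c • x v}
        mul_mem' := by
          rintro y y' ⟨c, hc, x, hx, e⟩ ⟨c', hc', x', hx', e'⟩
          exact ⟨c * c', by rw [map_mul]; linear_combination (σ c' * c') * hc + hc', x * x',
            X.mul_mem hx hx', fun v => by simp [e, e', smul_smul]⟩
        one_mem' := ⟨1, by simp, 1, X.one_mem, by simp⟩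
        inv_mem' := by
          rintro y ⟨c, hc, x, hx, e⟩
          exact ⟨σ c, by rw [P.σσ, mul_comm, hc], x⁻¹, X.inv_mem hx, fun v => y.injective (by
            rw [apply_inv_apply, e, map_smul, apply_inv_apply, smul_smul, mul_comm, hc, one_smul])⟩ }
    refine fin Y ?_ (h.tfOn_top_of_two hH hP (X := Y) ?_ hμ (fun y hy hy' => ?_) (by omega) hq
      ⟨1, by simp, g, hg, by simp⟩ hg')
    · rintro y ⟨c, hc, x, hx, e⟩ hy
      have h3 := hdet e
      rw [mem_SLV.1 hy, mem_SLV.1 (hX hx).2, mul_one] at h3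
      have h4 : c = 1 := by linear_combination c * h3 + (c ^ 3 + 1) * c3 c hc
      rwa [show y = x from LinearEquiv.ext (by simpa [h4] using e)]
    · rintro y ⟨c, hc, x, hx, e⟩
      exact (hH.isIso_iff _).2 fun u v => by
        rw [e, e, P.B_smul_left, P.B_smul_right, ← mul_assoc, hc, one_mul, (hX hx).1.B_eq]
    · obtain ⟨δ, hδ⟩ : ∃ δ, δ = LinearMap.det (y : V →ₗ[F] V) := ⟨_, rfl⟩
      have h3 : σ δ * δ = 1 := hδ ▸ Unitary.conj_det_mul_det hP hy
      have h4 := c3 δ h3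
      have h0 := right_ne_zero_of_mul_eq_one h3
      have e2 : ∀ v, (y.trans (LinearEquiv.smulOfNeZero F V δ h0)) v = δ • y v := fun v => rfl
      refine ⟨δ ^ 2, by rw [map_pow, ← mul_pow, h3, one_pow], _,
        hD _ ⟨(hH.isIso_iff _).2 fun u v => ?_, mem_SLV.2 ?_⟩ fun i => ?_, fun v => by
          rw [e2, smul_smul, ← pow_succ, h4, one_smul]⟩
      · rw [e2, e2, P.B_smul_left, P.B_smul_right, ← mul_assoc, h3, one_mul, hy.B_eq]
      · rw [hdet e2, ← hδ]
        linear_combination (δ ^ 3 + 1) * h4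
      · obtain ⟨j, d, hd⟩ := hy' i
        exact ⟨j, δ * d, by rw [e2, hd, mul_smul]⟩
  push Not at hq
  obtain ⟨a, ha, ha0, ha1⟩ := hq
  obtain ⟨k, hk, i, hi, hk'⟩ : ∃ k ∈ X, ∃ i, IsPt e (k (e i)) F ∧ ¬ Mon e k := by
    by_contra hst
    push Not at hst
    by_cases h2 : (2 : F) = 0
    · exact hg' (h.mon_of_even5 hH hP h2 hμ (by omega) ha ha0 ha1 hX hD hst hg)
    · exact hg' (fr5_mon h hH hP hD hι h2 hμ (fun g hg => (hX hg).1) hst hg)
  obtain ⟨m, hm, c, hc, hm'⟩ : ∃ m ∈ X, ∃ c : F, m (e i) = c • e i ∧ ¬ Mon e m := by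
    obtain ⟨j, c, hc⟩ := hi
    by_cases hij : j = i
    · exact ⟨k, hk, c, hij ▸ hc, hk'⟩
    obtain ⟨s, hs, hs', s1, -⟩ := h.odec.exists_swap hH hP hij
    obtain ⟨d, hd⟩ := Submodule.mem_span_singleton.1 (s1 _ (Submodule.mem_span_singleton_self _))
    refine ⟨s * k, X.mul_mem (hD s hs (Frame.mon_of_permD hs')) hk, c * d, ?_, fun h0 => hk' ?_⟩
    · rw [LinearEquiv.mul_apply, hc, map_smul, ← hd, smul_smul]
    · simpa using (h.mon_inv (Frame.mon_of_permD hs')).mul h0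
  obtain ⟨Y, h3, h4, h5, h6⟩ := h.exists_hat hH hP hX hD i
  exact fin Y h6 (h.tfOn_top_of_ne hH hP h3 hμ h4 (by omega) ha ha0 ha1 (h5 m hm c hc) hm')

end fr5

theorem su5_frame {F : Type*} [Field F] [Fintype F] {q : ℕ} (hF : Fintype.card F = q ^ 2)
    (D : Fin 5 → Submodule F (Fin 5 → F))
    (hD : Cfsg.Geo.IsNondegenerateMDecomposition (Cfsg.hermForm 5 F q) 1 D) :
    Cfsg.Geo.IsMaximalIn (Cfsg.GU 5 F q ⊓ Cfsg.Geo.specialLinear (Fin 5) F)
      (Cfsg.Geo.decompositionStabilizer D ⊓ (Cfsg.GU 5 F q ⊓ Cfsg.Geo.specialLinear (Fin 5) F)) := by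
  have hH := uPQ_isHerm hF 5
  have hP := uPQ_nondeg hF 5
  refine isMaximalIn_su_dec hF (by omega) D hD fun hO X hX hM g hg hg' => ?_
  choose e he he' using hO.exists_unit hH
  have h2 : ∀ i, D i = Submodule.span F {e i} := fun i => (Submodule.eq_of_le_of_finrank_eq
    ((Submodule.span_singleton_le_iff_mem _ _).2 (he i))
    (by rw [hO.dim, finrank_span_singleton (fun h0 => by simpa [h0] using he' i)])).symm
  have hf : Frame (uPQ hF 5) e := ⟨he', fun hij => hO.orth _ _ hij (he _) _ (he _),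
    fun v hv => hO.eq_zero hP fun i => by rw [h2]; exact (uPQ hF 5).mem_perp_span_singleton.2 (hv i)⟩
  have h4 : ∀ g, Mon e g → PermD D g := fun g hg => hO.exists_perm fun i => by
    obtain ⟨j, c, hc⟩ := hg i
    refine ⟨j, fun v hv => ?_⟩
    rw [h2] at hv
    obtain ⟨d, rfl⟩ := Submodule.mem_span_singleton.1 hv
    rw [map_smul, hc]
    exact (D j).smul_mem _ ((D j).smul_mem _ (he j))
  exact fr5_top hf hH hP (fun g hg hg' => hM g hg (h4 g hg')) (by simp) (muData_conj hF) hX hg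
    fun h0 => hg' (h4 g h0)

end CfsgLib.SU5
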