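import Mathlib
import Cfsg.Agent.Lib.SUMax.SubMat

/-! `SO₅(q)` is maximal in `SU₅(q)`, `q` odd.  See `plans/SU5.md`. -/

set_option autoImplicit false

namespace CfsgLib.SU5

open CfsgLib.Forms CfsgLib.Unitary CfsgLib.ClMax CfsgLib.RootMax CfsgLib.SUMax Module

section abs

variable {F : Type*} [Field F] {σ : F →+* F} {V : Type*} [AddCommGroup V] [Module F V]
  {K : Type*} [Field K] [Algebra K F] {σ₀ : K →+* K} {V₀ : Type*} [AddCommGroup V₀] [Module K V₀]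
  {P : PQ σ V} {P₀ : PQ σ₀ V₀} {j : V₀ →ₛₗ[algebraMap K F] V} {M : Subgroup (V ≃ₗ[F] V)}

/-- minus a reflection -/
theorem or5_negrefl [Finite F] [FiniteDimensional F V] (hH : P.IsHerm) (hP : P.Nondeg) (h5 : Odd (finrank F V))
    {y : V} (hy : P.B y y ≠ 0) : ∃ k ∈ SUV P, ∀ v, k v = -v + (2 / P.B y y * P.B y v) • y := by
  obtain ⟨r, h1, h2, h3⟩ := herm_exists_qrefl hH hP hy (δ := -1) (by simp)
  refine ⟨r.trans (LinearEquiv.neg F), ⟨⟨fun u v => by simp [h1.B_eq], fun u => ?_⟩, mem_SLV.2 ?_⟩, fun v => ?_⟩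
  · have := P.Λ.add_mem (P.N_smul (-1) (r u)) (h1.N_eq u)
    simpa using this
  · rw [show ((r.trans (LinearEquiv.neg F) : V ≃ₗ[F] V) : V →ₗ[F] V) = (-1 : F) • (r : V →ₗ[F] V) from
      LinearMap.ext fun v => by simp, LinearMap.det_smul, h2, h5.neg_one_pow]
    simp
  · simp only [LinearEquiv.trans_apply, h3, LinearEquiv.neg_apply]
    module

theorem or5_allFull (h : URat P P₀ j M) [FiniteDimensional K V₀] [FiniteDimensional F V] (hd : 5 ≤ finrank K V₀)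
    (hp : finrank K F = 2) (hfix : ∀ a, σ a = a → a ∈ (algebraMap K F).fieldRange) (h2 : (2 : K) ≠ 0)
    (hR : ∀ y, P₀.B y y ≠ 0 → ∃ k ∈ M, ∀ v, k v = -v + (2 / P.B (j y) (j y) * P.B (j y) v) • j y)
    {g : V ≃ₗ[F] V} (hg : g ∈ M) (hgH : ¬ ∃ c : F, c ≠ 0 ∧ ∀ v, ∃ w, g (j v) = c • j w) : AllFull P M := by
  by_cases hT : NoIrr P P₀ j M
  swap
  · exact h.allFull_of_not_noIrr hd (hp ▸ Nat.prime_two) hT
  obtain ⟨θ, hθ⟩ := h.hH.exists_ne_conj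
  have hdec := span_decomp (fixed_decomp P.σσ hfix hθ) h.span
  have hB := (h.hM hg).B_eq
  have h2' : (2 : F) ≠ 0 := fun e => h2 ((algebraMap K F).injective (by rw [map_ofNat, e, map_zero]))
  have key : ∀ y, P₀.B y y ≠ 0 → ∃ (c : F) (u : V₀), g (j y) = c • j u := fun y hy => by
    obtain ⟨z₀, z₁, hz⟩ := hdec (g (j y))
    obtain ⟨x, hx0, hx, hxz⟩ := h.exists_iso_orth ![z₀, z₁] (by omega)
    obtain ⟨k, hk, e⟩ := hR y hy
    have es : ∀ v, (g * k * g⁻¹) v = -v + (2 / P.B (j y) (j y) * P.B (g (j y)) v) • g (j y) := fun v => by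
      rw [LinearEquiv.mul_apply, LinearEquiv.mul_apply, e, map_add, map_neg, map_smul, apply_inv_apply,
        ← hB (j y) (g⁻¹ v), apply_inv_apply]
    obtain ⟨v, hv⟩ : ∃ v, P.B (g (j y)) (j v) ≠ 0 := by
      by_contra hc
      push Not at hc
      have := h.eq_zero fun v => P.B_eq_zero_comm.1 (hc v)
      exact hy (h.orth_iff.1 (by rw [← hB, this]; simp))
    obtain ⟨w, hw⟩ := h.rat_of_point hd hT (M.mul_mem (M.mul_mem hg hk) (M.inv_mem hg)) (c := -1) (by simp) hx0 hx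
      ⟨x, by
        rw [es, hz, P.B_add_left, P.B_smul_left, h.orth (u := z₀) (hxz 0), h.orth (u := z₁) (hxz 1)]
        simp⟩ v
    have hd0 : 2 / P.B (j y) (j y) * P.B (g (j y)) (j v) ≠ 0 :=
      mul_ne_zero (div_ne_zero h2' fun e => hy (h.orth_iff.1 e)) hv
    refine ⟨_⁻¹, v - w, (eq_inv_smul_iff₀ hd0).2 ?_⟩
    rw [es, neg_add_eq_iff_eq_add] at hw
    rw [hw, map_sub, neg_one_smul, sub_eq_add_neg]
  obtain ⟨x, hx0, hx, -⟩ := h.exists_iso_orth ![] (by omega)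
  obtain ⟨e, f, he, hf, hef, hfe, hxe, hxf⟩ := h.exists_pair hd hx
  obtain ⟨y, hy, hxy⟩ : ∃ y, P₀.B y y = 2 ∧ P₀.B x y = 0 :=
    ⟨e + f, by simp [he, hf, hef, hfe]; ring, by simp [hxe, hxf]⟩
  have hyx := P₀.B_eq_zero_comm.1 hxy
  obtain ⟨c₁, u₁, e1⟩ := key (y + x) (by simp [hy, hxy, hyx, hx, h2])
  obtain ⟨c₃, u₃, e3⟩ := key y (hy ▸ h2)
  have a1 := hB (j y) (j (y + x))
  have a3 := hB (j y) (j y)
  rw [e1, e3, P.B_smul_left, P.B_smul_right, h.hj, h.hj, P₀.B_add_right, hy, hyx, add_zero, map_ofNat] at a1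
  rw [e3, P.B_smul_left, P.B_smul_right, h.hj, h.hj, hy, map_ofNat] at a3
  have hc : c₃ ≠ 0 := by rintro rfl; exact h2' (by simpa using a3.symm)
  have hb : algebraMap K F (P₀.B u₃ u₁) ≠ 0 := fun e => h2' (by simpa [e] using a1.symm)
  have a4 : c₁ = c₃ * algebraMap K F (P₀.B u₃ u₃ / P₀.B u₃ u₁) := by
    rw [map_div₀, ← mul_div_assoc, eq_div_iff hb]
    exact mul_left_cancel₀ ((map_ne_zero σ).2 hc) (a1.trans a3.symm)
  refine absurd ⟨c₃, hc, h.rat_of_point hd hT hg (hfix _ (by rw [map_mul, P.σσ, mul_comm])) hx0 hx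
    ⟨(P₀.B u₃ u₃ / P₀.B u₃ u₁) • u₁ - u₃, ?_⟩⟩ hgH
  rw [map_sub, map_smulₛₗ, smul_sub, smul_smul, ← a4, ← e1, ← e3, map_add, map_add, add_sub_cancel_left]

end abs

theorem su5_orth {F : Type*} [Field F] [Fintype F] {q : ℕ} (hF : Fintype.card F = q ^ 2)
    (hodd : Odd q) (F₀ : Subfield F) (hcard : Fintype.card F = Nat.card F₀ ^ 2) (Q : GL (Fin 5) F)
    (hQ : Cfsg.Geo.IsFormRationalStructure (Cfsg.hermForm 5 F q) F₀ 1 Q) :
    Cfsg.Geo.IsMaximalIn (Cfsg.GU 5 F q ⊓ Cfsg.Geo.specialLinear (Fin 5) F)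
      (Cfsg.Geo.subfieldSubgroup F₀ Q ⊓ (Cfsg.GU 5 F q ⊓ Cfsg.Geo.specialLinear (Fin 5) F)) := by
  have hr' := finrank_eq_of_card_eq_pow F₀ hcard
  have hm := mem_iff_conj hF F₀ hcard
  have h2 : (2 : F) ≠ 0 := by
    intro h2
    have : CharP F 2 := CharTwo.of_one_ne_zero_of_two_eq_zero one_ne_zero h2
    have := FiniteField.even_card_iff_char_two.1 (ringChar.eq F 2)
    have h3 := hodd.pow (n := 2)
    rw [← hF, Nat.odd_iff] at h3
    omega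
  have h2' : (2 : F₀) ≠ 0 := fun h => h2 (by
    have := congrArg F₀.subtype h; rwa [map_ofNat, map_zero] at this)
  have hθ : (2⁻¹ : F₀) + conj₀ hF F₀ 2⁻¹ = 1 := by
    rw [map_inv₀, map_ofNat]; field_simp; ring
  have hβ : ∀ β : F, (∀ l ∈ F₀, l * β - conj hF (l * β) ∈ F₀) → β ∈ F₀ := by
    intro β h
    have h1 := (hm _).1 (h 1 F₀.one_mem)
    rw [one_mul, map_sub, conj_conj] at h1
    exact (hm β).2 (mul_left_cancel₀ h2 (by linear_combination h1))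
  refine isMaximalIn_su hF (by omega) _
    (fun g => ∃ c : F, c ≠ 0 ∧ ∀ v, ∃ w, g (ratEmb F₀ Q v) = c • ratEmb F₀ Q w)
    (fun g _ => mem_subfieldSubgroup F₀ Q g)
    ((uRat_su hF F₀ Q hQ _ hθ hβ _ le_rfl fun g hg _ => hg).exists_irr (by simp)
      (fieldRange_ne_top F₀ (by omega)))
    fun M hM hH g hg hgH x hx => ?_
  have h := uRat_su hF F₀ Q hQ _ hθ hβ M hM hH
  refine tf_of_allFull (uPQ_isHerm hF 5) (or5_allFull h (by simp) hr' (fun a ha => ⟨⟨a, (hm a).2 ha⟩, rfl⟩) h2'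
    (fun y hy => ?_) hg hgH) hx
  obtain ⟨k, hk, e⟩ := or5_negrefl h.hH h.hP (by simp; decide) fun e => hy (h.orth_iff.1 e)
  refine ⟨k, hH k hk ⟨1, one_ne_zero, fun v => ⟨-v + (2 / ratSesq hF F₀ Q 1 hQ y y * ratSesq hF F₀ Q 1 hQ y v) • y, ?_⟩⟩, e⟩
  rw [e, h.hj, h.hj, one_smul, map_add, map_neg, map_smulₛₗ, map_mul, map_div₀, map_ofNat]
  rfl

end CfsgLib.SU5
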