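import Mathlib
import Cfsg.Agent.Lib.SU5.Defs
import Cfsg.Agent.Lib.Wl5.Weil
import Cfsg.Agent.Lib.C3.BasicA
import Cfsg.Agent.Lib.Count.Basic

/-! An irreducible element of prime order in `GL₅`.  See `plans/SU5.md`. -/

set_option autoImplicit false
set_option linter.unusedSectionVars false

namespace CfsgLib.SU5.Sg

open Matrix Subgroup Cfsg Cfsg.Geo CfsgLib.Asch

variable {F : Type*} [Field F] [Fintype F] {K : Subalgebra F (Matrix (Fin 5) (Fin 5) F)}

theorem surj (hK : IsFieldSubalgebra 5 K) {v : Fin 5 → F} (hv : v ≠ 0) (w : Fin 5 → F) : ∃ k ∈ K, k *ᵥ v = w := by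
  let f : K →ₗ[F] (Fin 5 → F) :=
    { toFun := fun k => k.1 *ᵥ v, map_add' := fun a b => add_mulVec _ _ _, map_smul' := fun c a => smul_mulVec _ _ _ }
  have hi : Function.Injective f :=
    (injective_iff_map_eq_zero f).2 fun k hk => Subtype.ext (eq_zero_of_field hK k.2 hv hk)
  obtain ⟨k, hk⟩ := (LinearMap.injective_iff_surjective_of_finrank_eq_finrank (by
    rw [hK.finrank_eq]; simp)).1 hi w
  exact ⟨k, k.2, hk⟩

theorem mem_of_comm (hK : IsFieldSubalgebra 5 K) {b : Matrix (Fin 5) (Fin 5) F} (h : ∀ a ∈ K, b * a = a * b) :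
    b ∈ K := by
  have hv : (fun _ => 1 : Fin 5 → F) ≠ 0 := fun e => one_ne_zero (congrFun e 0)
  obtain ⟨k, hk, e⟩ := surj hK hv (b *ᵥ fun _ => 1)
  rwa [show b = k from toLin'.injective (LinearMap.ext fun w => by
    obtain ⟨a, ha, rfl⟩ := surj hK hv w
    rw [toLin'_apply, toLin'_apply, mulVec_mulVec, mulVec_mulVec, h a ha, hK.comm k hk a ha, ← mulVec_mulVec,
      ← mulVec_mulVec, e])]

theorem pow_card {d : ℕ} (hK : IsFieldSubalgebra d K) {a : Matrix (Fin 5) (Fin 5) F} (ha : a ∈ K) (h0 : a ≠ 0) :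
    a ^ (Fintype.card F ^ d - 1) = 1 := by
  let _ : Field K := (isField_of_isFieldSubalgebra hK).toField
  have : Finite K := Module.finite_of_finite F
  let _ := Fintype.ofFinite K
  have := FiniteField.pow_card_sub_one_eq_one (⟨a, ha⟩ : K) fun e => h0 (congrArg Subtype.val e)
  rw [Module.card_eq_pow_finrank (K := F), hK.finrank_eq] at this
  exact congrArg Subtype.val this

theorem mem_normalizer {x : GL (Fin 5) F} (hK : IsFieldSubalgebra 5 K) (h : x.1 ∈ K) :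
    x ∈ subalgebraNormalizer K := fun k => by
  obtain ⟨b, hb, e⟩ := hK.inv _ h x.ne_zero
  have h1 : (x⁻¹ : GL (Fin 5) F).1 ∈ K := by rwa [Units.inv_eq_of_mul_eq_one_right e]
  refine ⟨fun hk => K.mul_mem (K.mul_mem h hk) h1, fun hk => ?_⟩
  simpa [mul_assoc] using K.mul_mem (K.mul_mem h1 hk) h

theorem pow_five_mem {x : GL (Fin 5) F} (hK : IsFieldSubalgebra 5 K) (hx : x ∈ subalgebraNormalizer K) :
    (x ^ 5).1 ∈ K := by
  let _ : Field K := (isField_of_isFieldSubalgebra hK).toField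
  have hs : Stab (subalgebraNormalizer K) K := stab_of_le_normalizer le_rfl
  have h3 : hs.equiv hx ^ 5 = 1 := by
    have : Finite K := Module.finite_of_finite F
    have := pow_card_eq_one' (x := hs.equiv hx)
    rwa [IsGalois.card_aut_eq_finrank, hK.finrank_eq] at this
  refine mem_of_comm hK fun a ha => cj_eq_iff.1 ?_
  have := congrArg (fun e : K ≃ₐ[F] K => (e ⟨a, ha⟩ : Matrix (Fin 5) (Fin 5) F)) h3
  simp only [pow_succ, pow_zero, one_mul, cj_mul] at this ⊢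
  exact this

/-- an element of `K` whose order is a primitive prime divisor -/
structure Cx (K : Subalgebra F (Matrix (Fin 5) (Fin 5) F)) (p f r : ℕ) (x : GL (Fin 5) F) : Prop where
  hK : IsFieldSubalgebra 5 K
  pp : p.Prime
  f1 : 1 ≤ f
  card : Fintype.card F = p ^ (2 * f)
  pr : r.Prime
  ndvd : ¬ r ∣ p
  prim : ∀ i, 1 ≤ i → i < 10 * f → ¬ r ∣ p ^ i - 1
  r11 : 11 ≤ r
  ord : orderOf x = r
  mem : x.1 ∈ K

variable {p f r : ℕ} {x : GL (Fin 5) F}

theorem Cx.xr (c : Cx K p f r x) : x ^ r = 1 := c.ord ▸ pow_orderOf_eq_one x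

theorem Cx.exists_pow (c : Cx K p f r x) {n : ℕ} (hn : ¬ r ∣ n) : ∃ k, (x ^ n) ^ k = x :=
  exists_pow_eq_self_of_coprime (c.ord ▸ ((Nat.Prime.coprime_iff_not_dvd c.pr).2 hn).symm)

theorem Cx.nd (c : Cx K p f r x) {n : ℕ} (hn : n ∣ 7 ^ 0 * 2 ^ 6 * 3 ^ 4 * 5) : ¬ r ∣ n := fun h => by
  have h1 := c.r11
  have k : ∀ s n, s ≤ 5 → 0 < s → ¬ r ∣ s ^ n := fun s n h5 h0 e =>
    absurd (Nat.le_of_dvd h0 (c.pr.dvd_of_dvd_pow e)) (by omega)
  have h2 := h.trans hn
  rw [pow_zero, one_mul, c.pr.dvd_mul, c.pr.dvd_mul, ← pow_one 5] at h2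
  exact h2.elim (fun a => a.elim (k _ _ (by omega) (by omega)) (k _ _ (by omega) (by omega)))
    (k _ _ (by omega) (by omega))

theorem Cx.le (c : Cx K p f r x) {B : Subalgebra F (Matrix (Fin 5) (Fin 5) F)} (hx : x.1 ∈ B) : K ≤ B := by
  have hA : IsFieldSubalgebra (Module.finrank F ↥(B ⊓ K)) (B ⊓ K) :=
    ⟨fun a ha b hb => c.hK.comm a ha.2 b hb.2, fun a ha h0 => ⟨_, (B ⊓ K).pow_mem ha (Fintype.card F ^ 5 - 1 - 1), by
      have := Nat.one_lt_pow (n := 5) (by norm_num) (Fintype.one_lt_card (α := F))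
      rw [← pow_succ', Nat.sub_add_cancel (by omega), pow_card c.hK ha.2 h0]⟩, rfl⟩
  have h1 : x ^ (Fintype.card F ^ Module.finrank F ↥(B ⊓ K) - 1) = 1 :=
    Units.ext (by rw [Units.val_pow_eq_pow_val, pow_card hA ⟨hx, c.mem⟩ x.ne_zero, Units.val_one])
  rw [← orderOf_dvd_iff_pow_eq_one, c.ord, c.card, ← pow_mul] at h1
  have h2 : 0 < Module.finrank F ↥(B ⊓ K) := Module.finrank_pos
  have h3 := c.f1
  have h4 : 5 ≤ Module.finrank F ↥(B ⊓ K) := by
    by_contra h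
    exact c.prim _ (Nat.mul_pos (by omega) h2) (by nlinarith) h1
  exact (Subalgebra.eq_of_le_of_finrank_le inf_le_right (c.hK.finrank_eq.trans_le h4)).ge.trans inf_le_left

theorem Cx.cent (c : Cx K p f r x) {b : Matrix (Fin 5) (Fin 5) F} (h : b * x.1 = x.1 * b) : b ∈ K :=
  mem_of_comm c.hK fun _ ha => (Subalgebra.mem_centralizer_iff F).1
    (c.le (B := Subalgebra.centralizer F {b}) ((Subalgebra.mem_centralizer_iff F).2 (by rintro _ rfl; exact h)) ha)
    b rfl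

theorem Cx.not_scalar (c : Cx K p f r x) {n : ℕ} (hn : ¬ r ∣ n) : x ^ n ∉ scalars (Fin 5) F := fun h => by
  obtain ⟨k, hk⟩ := c.exists_pow hn
  obtain ⟨a, ha⟩ := (mem_scalars_iff _).1 (hk ▸ pow_mem h k)
  have h1 := c.hK.finrank_eq
  rw [eq_bot_iff.2 (c.le (mem_bot_iff.2 ⟨_, ha⟩)), Subalgebra.finrank_bot] at h1
  omega

theorem Cx.inv (c : Cx K p f r x) {W : Submodule F (Fin 5 → F)} (h : W.map (toLin' x.1) ≤ W) : W = ⊥ ∨ W = ⊤ := by
  let B : Subalgebra F (Matrix (Fin 5) (Fin 5) F) :=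
    { carrier := {a | ∀ v ∈ W, a *ᵥ v ∈ W}
      mul_mem' := fun ha hb v hv => by rw [← mulVec_mulVec]; exact ha _ (hb v hv)
      add_mem' := fun ha hb v hv => by rw [add_mulVec]; exact W.add_mem (ha v hv) (hb v hv)
      algebraMap_mem' := fun a v hv => by
        rw [Algebra.algebraMap_eq_smul_one, smul_mulVec, one_mulVec]; exact W.smul_mem a hv }
  refine or_iff_not_imp_left.2 fun h0 => eq_top_iff.2 fun w _ => ?_
  obtain ⟨v, hv, v0⟩ := Submodule.exists_mem_ne_zero_of_ne_bot h0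
  obtain ⟨k, hk, rfl⟩ := surj c.hK v0 w
  exact c.le (B := B) (fun u hu => h ⟨u, hu, rfl⟩) hk v hv

theorem Cx.irr (c : Cx K p f r x) {H : Subgroup (GL (Fin 5) F)} (hx : x ∈ H) : ActsIrreducibly (matrixSet H) :=
  fun _ h => c.inv (h _ ⟨x, hx, rfl⟩)

theorem Cx.no_dec (c : Cx K p f r x) {t m : ℕ} {D : Fin t → Submodule F (Fin 5 → F)} (hD : IsMDecomposition m D) :
    x ∉ decompositionStabilizer D := by
  rintro ⟨σ, hσ⟩
  have e := card_eq_of_decomp hD
  rw [Fintype.card_fin] at e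
  have h2 := hD.two_le
  have h3 := hD.pos
  have h5 : t ≤ 5 := by nlinarith
  have k : ∀ n i, (D i).map (toLin' (x ^ n).1) = D ((σ ^ n) i) := fun n i => by
    induction n with
    | zero => simp
    | succ n ih => rw [pow_succ', pow_succ', Units.val_mul, toLin'_mul, Submodule.map_comp, ih, hσ]; rfl
  obtain ⟨j, hj⟩ := c.exists_pow (n := t.factorial) fun a => by
    have := (c.pr.dvd_factorial).1 a
    have := c.r11
    omega
  have h4 := k (t.factorial * j) ⟨0, by omega⟩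
  rw [pow_mul, hj, pow_mul, show σ ^ t.factorial = 1 by
    have := pow_card_eq_one' (x := σ)
    rwa [Nat.card_perm, Nat.card_eq_fintype_card, Fintype.card_fin] at this, one_pow] at h4
  have h6 := hD.finrank_eq ⟨0, by omega⟩
  rcases c.inv h4.le with h | h <;> rw [h] at h6
  · rw [finrank_bot] at h6; omega
  · rw [finrank_top, Module.finrank_fintype_fun_eq_card, Fintype.card_fin] at h6; nlinarith

theorem Cx.eq (c : Cx K p f r x) {K' : Subalgebra F (Matrix (Fin 5) (Fin 5) F)} (hK' : IsFieldSubalgebra 5 K')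
    (hx : x ∈ subalgebraNormalizer K') : K = K' := by
  obtain ⟨k, hk⟩ := c.exists_pow (c.nd (n := 5) (by decide))
  refine Subalgebra.eq_of_le_of_finrank_eq (c.le ?_) (c.hK.finrank_eq.trans hK'.finrank_eq.symm)
  rw [← hk, Units.val_pow_eq_pow_val]
  exact K'.pow_mem (pow_five_mem hK' hx) k

/-- an abelian subgroup normalised by `x` lies in `K` -/
theorem Cx.ab (c : Cx K p f r x) {A : Subgroup (GL (Fin 5) F)} (hA : ∀ a ∈ A, ∀ b ∈ A, a * b = b * a)
    (hn : x ∈ normalizer (A : Set (GL (Fin 5) F))) : ∀ a ∈ A, a.1 ∈ K := fun a ha => by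
  have hc : ∀ u ∈ env A, ∀ v ∈ env A, u * v = v * u := fun u hu v hv =>
    comm_env (fun b hb => (comm_env (fun d hd => congrArg Units.val (hA b hb d hd)) hu).symm) hv
  by_cases h0 : env A = ⊥
  · exact (h0.le.trans bot_le) (coe_mem_env ha)
  obtain ⟨t, m, D, hD, h⟩ | ⟨s, K', hs, hK', h1, h⟩ := c2_or_c3 (c.irr (mem_zpowers x))
    (nrm_iff_le_normalizer.2 (zpowers_le.2 hn)).stab_env hc h0
  · exact (c.no_dec hD (h (mem_zpowers x))).elim
  obtain rfl : s = 5 := (Nat.prime_dvd_prime_iff_eq hs Nat.prime_five).1 (by simpa using field_dvd_card hK')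
  obtain rfl := c.eq hK' (h (mem_zpowers x))
  exact mem_of_comm hK' fun b hb => hc _ (coe_mem_env ha) _ (h1 hb)

theorem Cx.no_sub (c : Cx K p f r x) {F₀ : Subfield F} {s : ℕ} {P : GL (Fin 5) F} (hs : s.Prime)
    (h : Fintype.card F = Nat.card F₀ ^ s) : x ∉ subfieldSubgroup F₀ P := by
  classical
  rintro ⟨y, hy, e⟩
  obtain ⟨_, ⟨g, rfl⟩, z, hz, rfl⟩ := mem_sup_of_normal_right.1 hy
  obtain ⟨a, rfl⟩ := mem_scalars_iff_sc.1 hz
  have f1 := c.f1
  have h1 : ¬ r ∣ Fintype.card F - 1 := c.card ▸ c.prim _ (by omega) (by omega)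
  have h2 : orderOf (g ^ (Fintype.card F - 1)) = r := by
    rw [← orderOf_injective (GeneralLinearGroup.map F₀.subtype) (Units.map_injective
      (map_injective F₀.subtype.injective)), ← orderOf_injective (MulAut.conj P).toMonoidHom (MulAut.conj P).injective,
      ← c.ord, ← ((Nat.Prime.coprime_iff_not_dvd c.pr).2 h1 |> fun k => (c.ord.symm ▸ k : (orderOf x).Coprime _)
        |>.orderOf_pow), ← e, ← map_pow, Commute.mul_pow (mul_comm_of_mem_scalars (sc_mem a) _).symm, ← map_pow,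
      ← map_pow, ← Fintype.card_units, pow_card_eq_one, map_one, mul_one]
  have h3 := orderOf_dvd_natCard (g ^ (Fintype.card F - 1))
  let _ := Fintype.ofFinite F₀
  rw [h2, card_GL_field, Prime.dvd_finset_prod_iff c.pr.prime] at h3
  obtain ⟨i, -, h3⟩ := h3
  rw [c.card, Nat.card_eq_fintype_card] at h
  obtain ⟨j, -, hj⟩ := (Nat.dvd_prime_pow c.pp).1 (h ▸ dvd_pow_self _ hs.ne_zero : Fintype.card F₀ ∣ p ^ (2 * f))
  rw [hj, ← pow_mul] at h
  have h4 := Nat.pow_right_injective c.pp.two_le h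
  have h5 := hs.two_le
  have h6 : 1 ≤ j := Nat.pos_of_ne_zero (by rintro rfl; omega)
  have h7 := i.2
  rw [hj, show (p ^ j) ^ 5 = (p ^ j) ^ (i : ℕ) * (p ^ j) ^ (5 - (i : ℕ)) by rw [← pow_add]; congr 1; omega,
    ← Nat.mul_sub_one, c.pr.dvd_mul, ← pow_mul, ← pow_mul] at h3
  refine h3.elim (fun a => c.ndvd (c.pr.dvd_of_dvd_pow a)) (c.prim _ (Nat.mul_pos h6 (by omega)) ?_)
  calc j * (5 - (i : ℕ)) ≤ f * 5 := Nat.mul_le_mul (by nlinarith) (by omega)
    _ < 10 * f := by omega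

open CfsgLib.Wl5 in
theorem Cx.no_heis (c : Cx K p f r x) {ζ : Fˣ} {a b : GL (Fin 5) F} (h : HP ζ a b) :
    x ∉ normalizer (closure {a, b} : Subgroup (GL (Fin 5) F)) := fun hx => by
  have ma : a ∈ closure {a, b} := subset_closure (by simp)
  have mb : b ∈ closure {a, b} := subset_closure (by simp)
  have h1 := C3.card_modEq_cent (R := (closure {a, b}).map (heisPi (Fin 5) F)) (x := heisPi (Fin 5) F x) c.pr
    (by rw [← map_pow, c.xr, map_one]) (le_normalizer_map _ (mem_map_of_mem _ hx))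
  have : Fact (Nat.Prime 5) := ⟨Nat.prime_five⟩
  have p5 : IsPGroup 5 ((closure {a, b}).map (heisPi (Fin 5) F)) :=
    IsPGroup.map (fun g => ⟨1, Subtype.ext (by simpa using h.pow5 g.2)⟩) _
  have h2 : Nat.card ((closure {a, b}).map (heisPi (Fin 5) F)) ≤ 25 := by
    refine (Nat.card_le_card_of_surjective (fun i : Fin 5 × Fin 5 => (⟨heisPi (Fin 5) F (a ^ i.1.1 * b ^ i.2.1),
      mem_map_of_mem _ (mul_mem (pow_mem ma _) (pow_mem mb _))⟩ : (closure {a, b}).map (heisPi (Fin 5) F))) ?_).trans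
      (by simp)
    rintro ⟨_, g, hg, rfl⟩
    obtain ⟨d, i, j, rfl⟩ := h.mem_of_comm (h.comm_mem hg ma) (h.comm_mem hg mb)
    refine ⟨(⟨i % 5, Nat.mod_lt _ (by norm_num)⟩, ⟨j % 5, Nat.mod_lt _ (by norm_num)⟩), Subtype.ext ?_⟩
    simp only [map_mul, heis_pi_sc, one_mul]
    rw [← pow_eq_pow_mod i h.x5, ← pow_eq_pow_mod j h.y5]
  obtain ⟨k, hk⟩ := p5.exists_card_eq
  obtain ⟨l, hl⟩ := (p5.to_le (inf_le_left (b := centralizer {heisPi (Fin 5) F x}))).exists_card_eq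
  have h3 := card_le_of_le (inf_le_left (a := (closure {a, b}).map (heisPi (Fin 5) F))
    (b := centralizer {heisPi (Fin 5) F x}))
  have h4 : Nat.card ((closure {a, b}).map (heisPi (Fin 5) F)) ≤
      Nat.card ↥((closure {a, b}).map (heisPi (Fin 5) F) ⊓ centralizer {heisPi (Fin 5) F x}) := by
    have h5 := (Nat.modEq_iff_dvd' h3).1 h1.symm
    rw [hk, hl] at h3 h5 ⊢
    rw [hk, show 25 = 5 ^ 2 from rfl, Nat.pow_le_pow_iff_right (by norm_num)] at h2
    rw [Nat.pow_le_pow_iff_right (by norm_num)] at h3 ⊢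
    by_contra h6
    refine c.nd ?_ h5
    interval_cases k <;> interval_cases l <;> first | omega | decide
  have h5 := (eq_of_le_of_card_ge inf_le_left h4).ge.trans inf_le_right
  have k1 : ∀ g ∈ closure {a, b}, x * g * x⁻¹ * g⁻¹ ∈ scalars (Fin 5) F := fun g hg =>
    heis_comm_iff.2 (mem_centralizer_singleton_iff.1 (h5 (mem_map_of_mem _ hg))).symm
  obtain ⟨d, i, j, e⟩ := h.mem_of_comm (k1 a ma) (k1 b mb)
  refine c.not_scalar (c.nd (n := 5) (by decide)) ?_
  rw [e, Commute.mul_pow (mul_comm_of_mem_scalars (sc_mem d) _), h.pow5 (mul_mem (pow_mem ma i) (pow_mem mb j)),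
    mul_one]
  exact pow_mem (sc_mem d) 5

end CfsgLib.SU5.Sg
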