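import Mathlib
import Cfsg.Agent.Lib.SU5.Defs
import Cfsg.Agent.Lib.Asch.SUNorm
import Cfsg.Agent.Lib.Asch.OrthField
import Cfsg.Agent.Lib.Spec.Zsig
import Cfsg.Agent.Lib.Wl5.Weil
import Cfsg.Agent.Lib.SU5.SingA

/-! The normaliser of the torus `(q⁵+1)/(q+1)` is maximal in `SU₅(q)`.  See `plans/SU5.md`. -/

set_option autoImplicit false

namespace CfsgLib.SU5

open Matrix Subgroup Cfsg Cfsg.Geo CfsgLib.Asch

variable {F : Type*} [Field F] [Fintype F] {q : ℕ}

namespace Sg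

variable {K : Subalgebra F (Matrix (Fin 5) (Fin 5) F)} {p f r : ℕ} {x : GL (Fin 5) F} {P : Subgroup (GL (Fin 5) F)}

theorem exists_elt (hF : Fintype.card F = q ^ 2) (hK : IsFieldSubalgebra 5 K)
    (hadj : IsAdjointClosedFor (hermForm 5 F q) K) {m : ℕ} (h1 : m ∣ q ^ 5 + 1) (h2 : m.Coprime (q + 1)) :
    ∃ y ∈ SUG 5 F q, y.1 ∈ K ∧ orderOf y = m := by
  let _ : Field K := (isField_of_isFieldSubalgebra hK).toField
  have : Finite K := Module.finite_of_finite F
  have hf := isSesq_herm hF 5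
  obtain ⟨g, hg⟩ := IsCyclic.exists_ofOrder_eq_natCard (α := Kˣ)
  have hm : m ∣ orderOf g := by
    rw [hg, Nat.card_units, Module.natCard_eq_pow_finrank (K := F), hK.finrank_eq,
      Nat.card_eq_fintype_card, hF, ← pow_mul, mul_comm, pow_mul, ← one_pow 2, Nat.sq_sub_sq]
    exact h1.mul_right _
  obtain ⟨θ, hθ⟩ : ∃ θ : Kˣ, orderOf θ = m := ⟨_, orderOf_pow_orderOf_div (orderOf_pos g).ne' hm⟩
  let j : Kˣ →* GL (Fin 5) F := Units.map K.val.toMonoidHom
  have hj : Function.Injective j := Units.map_injective Subtype.val_injective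
  have ho : orderOf (j θ) = m := (orderOf_injective j hj θ).trans hθ
  have hGU : j θ ∈ GU 5 F q := (Unitary.mem_GU_iff' _).2 fun u v => by
    rw [hf.adj_spec, (adj_eq_pow hF hf hK hadj).2 (j θ).val θ.1.2, mulVec_mulVec, ← pow_succ,
      ← Units.val_pow_eq_pow_val, orderOf_dvd_iff_pow_eq_one.1 (ho ▸ h1), Units.val_one, one_mulVec]
  exact ⟨j θ, ⟨hGU, ClMax.mem_specialLinear.2 (det_eq_one_of_pow hF hGU (ho ▸ pow_orderOf_eq_one _) h2)⟩, θ.1.2, ho⟩

omit [Fintype F] in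
theorem scalar_five {g : GL (Fin 5) F} (h1 : g ∈ scalars (Fin 5) F) (h2 : g ∈ specialLinear (Fin 5) F) :
    g ^ 5 = 1 := by
  obtain ⟨a, rfl⟩ := mem_scalars_iff_sc.1 h1
  have := ClMax.mem_specialLinear.1 h2
  rw [← map_pow, show a ^ 5 = 1 from Units.ext (by simpa [coe_sc] using this), map_one]

theorem card_P (hP : P ≤ specialLinear (Fin 5) F) : Nat.card P ∣ Nat.card (Bar P) * 5 := by
  rw [card_eq_card_quotient_mul_card_subgroup ((scalars (Fin 5) F).subgroupOf P)]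
  refine Nat.mul_dvd_mul_left _ ?_
  have : IsCyclic (scalars (Fin 5) F) :=
    isCyclic_of_surjective _ (MonoidHom.rangeRestrict_surjective (sc (Fin 5) : Fˣ →* GL (Fin 5) F))
  have : IsCyclic ↥(scalars (Fin 5) F ⊓ P) := Subgroup.isCyclic_of_le inf_le_left
  rw [← inf_subgroupOf_right, Nat.card_congr (subgroupOfEquivOfLe inf_le_right).toEquiv, ← IsCyclic.exponent_eq_card]
  exact Monoid.exponent_dvd_of_forall_pow_eq_one fun g => Subtype.ext (scalar_five g.2.1 (hP g.2.2))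

theorem Cx.dvd (c : Cx K p f r x) (hP : P ≤ specialLinear (Fin 5) F) (hx : x ∈ normalizer (P : Set (GL (Fin 5) F)))
    (h2 : 2 ∣ Nat.card P) : r ∣ Nat.card P := by
  by_contra h
  have := Fact.mk c.pr
  have := Fact.mk Nat.prime_two
  obtain ⟨S, hS⟩ := Count.exists_sylow_normalized (p := 2) (k := 1) P h (by rw [pow_one, c.xr]) hx
  have : Nontrivial S := (nontrivial_iff_ne_bot _).2 (S.ne_bot_of_dvd_card h2)
  have := S.isPGroup'.center_nontrivial
  obtain ⟨k, k0, hk⟩ := (S.isPGroup'.to_subgroup (center S)).nontrivial_iff_card.1 this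
  obtain ⟨t, ht⟩ := exists_prime_orderOf_dvd_card' (G := center S) 2 (hk ▸ dvd_pow_self 2 k0.ne')
  have h1 := c.ab (A := (S : Subgroup P).map P.subtype ⊓ centralizer ((S : Subgroup P).map P.subtype : Set _))
    (fun a ha b hb => hb.2 a ha.1) (Tech.mem_normalizer_iff_cj.2 (by
      rw [Tech.cj_inf, Tech.cj_centralizer, Tech.mem_normalizer_iff_cj.1 hS])) t.1.1.1
    ⟨⟨_, t.1.2, rfl⟩, by
      rintro _ ⟨s, hs, rfl⟩
      exact congrArg (fun a : S => a.1.1) (mem_center_iff.1 t.2 ⟨s, hs⟩)⟩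
  obtain ⟨t2, t1⟩ := orderOf_eq_prime_iff.1 ht
  have e2 : t.1.1.1.1 * t.1.1.1.1 = 1 := by
    rw [pow_two] at t2
    exact congrArg (fun a : center S => a.1.1.1.1) t2
  have e1 : t.1.1.1.1 - 1 ≠ 0 := fun e =>
    t1 (Subtype.ext (Subtype.ext (Subtype.ext (Units.ext (sub_eq_zero.1 e)))))
  have e3 := ClMax.mem_specialLinear.1 (hP t.1.1.2)
  generalize t.1.1.1.1 = u at h1 e1 e2 e3
  obtain ⟨w, -, hw⟩ := c.hK.inv _ (K.sub_mem h1 K.one_mem) e1
  have e4 : u = -1 := by
    rw [← add_eq_zero_iff_eq_neg]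
    calc u + 1 = (u + 1) * ((u - 1) * w) := by rw [hw, mul_one]
      _ = (u * u - 1) * w := by noncomm_ring
      _ = 0 := by rw [e2, sub_self, zero_mul]
  rw [e4, det_neg, det_one] at e3
  refine e1 ?_
  rw [e4, ← neg_one_smul F (1 : Matrix (Fin 5) (Fin 5) F), show (-1 : F) = 1 by
    rw [Fintype.card_fin] at e3; linear_combination e3, one_smul, sub_self]

theorem Cx.eleven {y : GL (Fin 5) F} (c : Cx K p f 11 (y ^ 11)) {M : Subgroup (GL (Fin 5) F)}
    (hP : P ≤ specialLinear (Fin 5) F) (hc : IsResidualCore M P) (hy : y ∈ M) (h : Nat.card (Bar P) = 660)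
    (h11 : 11 ∣ Nat.card P) : False := by
  classical
  have := Fact.mk c.pr
  have hn : y ∈ normalizer (P : Set (GL (Fin 5) F)) := nrm_iff_le_normalizer.1 hc.normal hy
  have h1 := card_P hP
  rw [h] at h1
  obtain ⟨t, ht⟩ := exists_prime_orderOf_dvd_card' 11 h11
  have key : ∀ g : P, g ^ 11 = 1 → g.1.1 ∈ K := fun g hg => by
    obtain ⟨T, hT⟩ := (Tech.isPGroup_zpowers_of_pow (p := 11) (k := 1) hg).exists_le_sylow
    have a1 : Nat.card (Sylow 11 P) < 121 := by
      have b1 := card_sylow_modEq_one 11 P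
      have b2 : T.index ∣ 300 := (Nat.Coprime.dvd_mul_left ((Nat.Prime.coprime_iff_not_dvd c.pr).2
        T.not_dvd_index).symm).1 ((index_dvd_card _).trans h1)
      exact (by decide : ∀ n ∈ Nat.divisors 300, n % 11 = 1 → n < 121) _
        (Nat.mem_divisors.2 ⟨T.card_dvd_index.trans b2, by norm_num⟩) b1
    let φ : MulAut P := P.normalizerMonoidHom ⟨y, hn⟩
    have a2 : φ ^ 11 • T = T := by
      let _ := Fintype.ofFinite (Sylow 11 P)
      have b1 : MulAction.period φ T ∣ 11 ^ 2 := MulAction.pow_smul_eq_iff_period_dvd.1 (by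
        rw [← map_pow, show (⟨y, hn⟩ : normalizer (P : Set (GL (Fin 5) F))) ^ 11 ^ 2 = 1 from
          Subtype.ext ((pow_mul y 11 11).trans c.xr), map_one, one_smul])
      have b2 : MulAction.period φ T ≤ Fintype.card (Sylow 11 P) := Function.minimalPeriod_le_card
      rw [← Nat.card_eq_fintype_card] at b2
      obtain ⟨i, hi, e⟩ := (Nat.dvd_prime_pow c.pr).1 b1
      rw [MulAction.pow_smul_eq_iff_period_dvd, e]
      interval_cases i <;> omega
    have a3 : IsCyclic T := isCyclic_of_card_dvd_prime (p := 11) (by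
      obtain ⟨k, hk⟩ := T.isPGroup'.exists_card_eq
      have b1 := (card_subgroup_dvd_card (T : Subgroup P)).trans h1
      rw [hk] at b1 ⊢
      have b2 : ¬ 2 ≤ k := fun a => absurd ((pow_dvd_pow 11 a).trans b1) (by decide)
      simpa using pow_dvd_pow 11 (show k ≤ 1 by omega))
    refine c.ab (A := (T : Subgroup P).map P.subtype) ?_ (Tech.mem_normalizer_of_forall ?_) g.1
      ⟨g, hT (mem_zpowers g), rfl⟩
    · rintro _ ⟨a, ha, rfl⟩ _ ⟨b, hb, rfl⟩
      exact congrArg (fun a : T => a.1.1) (a3.isMulCommutative.is_comm.comm ⟨a, ha⟩ ⟨b, hb⟩)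
    · rintro _ ⟨a, ha, rfl⟩
      have b1 : (φ ^ 11) a ∈ (T : Subgroup P) := by
        rw [← a2]; exact smul_mem_pointwise_smul a (φ ^ 11) _ ha
      refine ⟨_, b1, ?_⟩
      rw [← map_pow]
      rfl
  have hW : ∀ g ∈ normalClosure {t}, g.1.1 ∈ K := fun g hg =>
    ((closure_le ((K.toSubmonoid.units).subgroupOf P)).2 (fun a ha => by
      obtain ⟨_, rfl, b, hb⟩ := Group.mem_conjugatesOfSet_iff.1 ha
      have a11 : a ^ 11 = 1 := by
        rw [eq_mul_inv_of_mul_eq hb.eq.symm, ← Units.val_inv_eq_inv_val] 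
        rw [Units.val_inv_eq_inv_val, conj_pow, ← ht, pow_orderOf_eq_one, mul_one, mul_inv_cancel]
      exact ⟨key a a11, key a⁻¹ (by rw [inv_pow, a11, inv_one])⟩) hg).1
  have := hc.simple
  rcases ((normalClosure_normal (s := {t})).map _ (QuotientGroup.mk'_surjective
    ((scalars (Fin 5) F).subgroupOf P))).eq_bot_or_eq_top with e | e
  · rw [Subgroup.map_eq_bot_iff, QuotientGroup.ker_mk'] at e
    have := orderOf_dvd_of_pow_eq_one (show t ^ 5 = 1 from
      Subtype.ext (scalar_five (e (subset_normalClosure rfl)) (hP t.2)))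
    rw [ht] at this
    omega
  · refine hc.nonabelian ⟨⟨fun a b => ?_⟩⟩
    obtain ⟨a, ha, rfl⟩ := e.ge (mem_top a)
    obtain ⟨b, hb, rfl⟩ := e.ge (mem_top b)
    rw [← map_mul, ← map_mul, show a * b = b * a from Subtype.ext (Units.ext (c.hK.comm _ (hW a ha) _ (hW b hb)))]

end Sg

open Sg in
theorem su5_singer (hF : Fintype.card F = q ^ 2) (hres : Res F q) (hq : 3 ≤ q)
    {K : Subalgebra F (Matrix (Fin 5) (Fin 5) F)} (hK : IsFieldSubalgebra 5 K)
    (hadj : IsAdjointClosedFor (hermForm 5 F q) K) :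
    IsMaximalIn (SUG 5 F q) (subalgebraNormalizer K ⊓ SUG 5 F q) := by
  obtain ⟨p, -, n, hp, hn⟩ := FiniteField.card' F
  obtain ⟨f, -, rfl⟩ := (Nat.dvd_prime_pow hp).1 (show q ∣ p ^ (n : ℕ) by rw [← hn, hF]; exact dvd_pow_self _ two_ne_zero)
  have f1 : 1 ≤ f := Nat.pos_of_ne_zero (by rintro rfl; simp at hq)
  obtain ⟨r, hr, h1, h2, h3⟩ := Spec.exists_large_zsig (q := p) (n := 10 * f) hp.two_le (by omega)
    (by rintro ⟨rfl, h⟩; obtain rfl : f = 1 := by omega
        simp at hq) (by omega) (by omega)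
  have p0 := hp.pos
  have nd : ¬ r ∣ p := fun a => by
    have := (Nat.dvd_sub (a.trans (dvd_pow_self p (show 10 * f ≠ 0 by omega))) h1)
    rw [Nat.sub_sub_self (Nat.one_le_pow _ _ p0)] at this
    exact hr.one_lt.ne' (Nat.dvd_one.1 this)
  have r11 : 11 ≤ r := by
    by_contra a
    refine h2 (r - 1) (by have := hr.two_le; omega) (by omega) ((Nat.modEq_iff_dvd' (Nat.one_le_pow _ _ p0)).1 ?_)
    rw [← Nat.totient_prime hr]
    exact (Nat.ModEq.pow_totient ((Nat.Prime.coprime_iff_not_dvd hr).2 nd).symm).symm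
  have e : p ^ (10 * f) - 1 = ((p ^ f) ^ 5 + 1) * (p ^ (5 * f) - 1) := by
    rw [← pow_mul, mul_comm f, ← Nat.sq_sub_sq, ← pow_mul, one_pow]; congr 2; omega
  have c1 : r.Coprime (p ^ (5 * f) - 1) := (Nat.Prime.coprime_iff_not_dvd hr).2 (h2 _ (by omega) (by omega))
  have c2 : r.Coprime (p ^ f + 1) := (Nat.Prime.coprime_iff_not_dvd hr).2 fun a => h2 (2 * f) (by omega) (by omega) (by
    rw [mul_comm, pow_mul, ← one_pow 2, Nat.sq_sub_sq]; exact a.mul_right _)
  rw [e] at h1 h3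
  obtain ⟨x, hx, xK, ho⟩ := exists_elt hF hK hadj (c1.dvd_of_dvd_mul_right h1) c2
  have cx : ∀ x : GL (Fin 5) F, orderOf x = r → x.1 ∈ K → Cx K p f r x := fun x a b =>
    ⟨hK, hp, f1, by rw [hF, ← pow_mul, mul_comm], hr, nd, h2, r11, a, b⟩
  have c := cx x ho xK
  have xN : x ∈ subalgebraNormalizer K ⊓ SUG 5 F (p ^ f) := ⟨mem_normalizer hK xK, hx⟩
  refine max_of hF hres inf_le_right (fun a => not_le_subalgebraNormalizer hF (by norm_num) (by omega) (by norm_num) hK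
    (a.trans inf_le_left)) (c.irr xN) (fun D hD a => c.no_dec hD (a xN)) (fun K' hK' a => by rw [c.eq hK' (a xN)])
    (fun F₀ s P hs a b => c.no_sub hs a (b xN)) (fun R a1 a2 a3 a4 => ?_) fun M P a1 a2 a3 a4 a5 => ?_
  · obtain ⟨ζ, a, b, -, -, -, -, h, rfl, -⟩ := Wl5.exists_nf a1 a2 a3
    exact (c.no_heis h (a4 xN)).elim
  have hP : P ≤ specialLinear (Fin 5) F := a3.le.trans (a2.trans inf_le_right)
  have d1 := c.dvd hP (nrm_iff_le_normalizer.1 a3.normal (a1 xN)) (dvd_trans (by rcases a4 with a | a <;> rw [a] <;> decide)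
    (card_quotient_dvd_card ((scalars (Fin 5) F).subgroupOf P)))
  have d2 := (hr.dvd_mul.1 (d1.trans (card_P hP))).resolve_right (c.nd (by decide))
  obtain a4 | a4 := a4 <;> rw [a4] at d2
  swap
  · exact c.nd (by decide) d2
  obtain rfl : r = 11 := (Nat.prime_dvd_prime_iff_eq hr (by norm_num)).1
    ((hr.dvd_mul.1 (show r ∣ 60 * 11 from d2)).resolve_left (c.nd (by decide)))
  obtain ⟨y, hy, yK, hy'⟩ := exists_elt hF hK hadj ((c1.pow_left 2).dvd_of_dvd_mul_right (h3.resolve_left (by omega)))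
    (c2.pow_left 2)
  exact (cx (y ^ 11) (by rw [orderOf_pow' y (by norm_num), hy']; rfl) (K.pow_mem yK 11)).eleven hP a3
    (a1 ⟨mem_normalizer hK yK, hy⟩) a4 d1

end CfsgLib.SU5
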